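import Cfsg.Agent.Lib.Fischer.M23Recog.Local
import Cfsg.Agent.Lib.Fischer.M23Recog.Cert.Defs

/-!
Charts: the neighbours of a member carried to the 3510 points of the presented Fi22.
-/

set_option autoImplicit false
set_option linter.unusedSectionVars false

namespace CfsgLib.Fischer.M23Recog

open CfsgLib.Fischer
open CfsgLib.SporRecognition.CosetCert CfsgLib.SporRecognition.FischerAut
open CfsgLib.SporRecognition.Cert

/-- The presented Fi22. -/
abbrev F22 : Type :=
  PresentedGroup (Cfsg.Spor.coxRelators Cfsg.Spor.Fi22.edges ∪ {r | r ∈ Cfsg.Spor.Fi22.extra})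

local notation "σ₀" => Fi22Conf.σ
local notation "τ₀" => Fi22Conf.τ

theorem tau_conj (g : F22) (u : Fin 3510) : g * τ₀ u * g⁻¹ = τ₀ (σ₀ g u) := Fi22Conf.base.heq g u

theorem tau_move (u v : Fin 3510) : σ₀ (τ₀ u) v = v ↔ Commute (τ₀ u) (τ₀ v) := by
  rw [commute_iff_eq, ← mul_inv_eq_iff_eq_mul, Fi22Conf.base.heq]
  exact ⟨fun h => by rw [h], fun h => Fi22Conf.tau_inj h⟩

theorem tau_range (u : F22) :
    u ∈ conjugatesOf (PresentedGroup.of Cfsg.Spor.Fi22.Gen.a : F22) ↔ ∃ v, τ₀ v = u := by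
  rw [← Fi22Conf.tau_a, conjugatesOf, Set.mem_ofPred_eq, isConj_iff]
  constructor
  · rintro ⟨g, rfl⟩
    exact ⟨_, (Fi22Conf.base.heq g Fi22Conf.pt0).symm⟩
  · rintro ⟨v, rfl⟩
    exact ⟨gTo Fi22U.certified v, (Fi22Conf.base.heq _ _).trans (congrArg _ (gTo_spec _ v))⟩

variable {G : Type*} [Group G] [Finite G] {T : Set G}

/-- The neighbours of a member as the points of the presented Fi22. -/
structure Chart (T : Set G) (z : G) where
  ψ : G → Fin 3510
  χ : Subgroup.centralizer ({z} : Set G) →* F22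
  bij : Set.BijOn ψ (perp T z) Set.univ
  ker : ∀ k : Subgroup.centralizer ({z} : Set G), χ k = 1 → (k : G) = 1 ∨ (k : G) = z
  val : ∀ k : Subgroup.centralizer ({z} : Set G), (k : G) ∈ perp T z → χ k = τ₀ (ψ k)

theorem mem_centralizer {z x : G} (h : Commute z x) : x ∈ Subgroup.centralizer ({z} : Set G) :=
  Subgroup.mem_centralizer_singleton_iff.2 h.symm.eq

theorem commute_of_mem {z x : G} (h : x ∈ Subgroup.centralizer ({z} : Set G)) : Commute z x :=
  (show Commute x z from Subgroup.mem_centralizer_singleton_iff.1 h).symm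

namespace Chart

variable {z : G} (c : Chart T z)

theorem inj {x y : G} (hx : x ∈ perp T z) (hy : y ∈ perp T z) (h : c.ψ x = c.ψ y) : x = y :=
  c.bij.injOn hx hy h

theorem surj (v : Fin 3510) : ∃ x ∈ perp T z, c.ψ x = v := c.bij.surjOn (Set.mem_univ v)

theorem conj (k : Subgroup.centralizer ({z} : Set G)) {x : G} (hx : x ∈ perp T z)
    (hkx : (k : G) * x * (k : G)⁻¹ ∈ perp T z) :
    c.ψ ((k : G) * x * (k : G)⁻¹) = σ₀ (c.χ k) (c.ψ x) := by
  apply Fi22Conf.tau_inj
  let x' : Subgroup.centralizer ({z} : Set G) := ⟨x, mem_centralizer hx.2.2⟩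
  rw [← tau_conj, ← c.val x' hx, ← map_inv, ← map_mul, ← map_mul, c.val (k * x' * k⁻¹) hkx]
  rfl

theorem perp_of_commute (hS : Shape T) {k x : G} (hk : Commute z k) (hx : x ∈ perp T z) :
    k * x * k⁻¹ ∈ perp T z := by
  have := perp_conj hS k hx
  rwa [show k * z * k⁻¹ = z by rw [← hk.eq, mul_inv_cancel_right]] at this

/-- The action of a neighbour. -/
theorem refl (hS : Shape T) {x y : G} (hx : x ∈ perp T z) (hy : y ∈ perp T z) :
    x * y * x ∈ perp T z ∧ c.ψ (x * y * x) = σ₀ (τ₀ (c.ψ x)) (c.ψ y) := by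
  have h1 := perp_of_commute hS hx.2.2 hy
  have h2 := c.conj ⟨x, mem_centralizer hx.2.2⟩ hy h1
  rw [c.val ⟨x, mem_centralizer hx.2.2⟩ hx] at h2
  simp only [inv_self hS hx.1] at h1 h2
  exact ⟨h1, h2⟩

/-- Commuting is fixing. -/
theorem fix_iff (hS : Shape T) {x y : G} (hx : x ∈ perp T z) (hy : y ∈ perp T z) :
    σ₀ (τ₀ (c.ψ x)) (c.ψ y) = c.ψ y ↔ Commute x y := by
  obtain ⟨h1, h2⟩ := c.refl hS hx hy
  rw [← h2]
  constructor
  · intro h
    have h3 := c.inj h1 hy h
    rw [commute_iff_eq, ← mul_inv_eq_iff_eq_mul, inv_self hS hx.1]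
    exact h3
  · intro h
    rw [h.eq, mul_assoc, sq_one hS hx.1, mul_one]

theorem mem_perp_iff (hS : Shape T) {x y : G} (hx : x ∈ perp T z) (hy : y ∈ perp T z) :
    y ∈ perp T x ↔ σ₀ (τ₀ (c.ψ x)) (c.ψ y) = c.ψ y ∧ c.ψ y ≠ c.ψ x := by
  rw [c.fix_iff hS hx hy]
  exact ⟨fun h => ⟨h.2.2, fun e => h.2.1 (c.inj hy hx e)⟩, fun h => ⟨hy.1, fun e => h.2 (e ▸ rfl), h.1⟩⟩

/-- Follow a chart by an inner automorphism. -/
noncomputable def post (g : F22) : Chart T z where
  ψ x := σ₀ g (c.ψ x)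
  χ := (MulAut.conj g).toMonoidHom.comp c.χ
  bij := ((σ₀ g).bijective.bijOn_univ).comp c.bij
  ker k hk := c.ker k ((MulAut.conj g).injective (by
    rw [map_one]
    exact hk))
  val k hk := by
    show g * c.χ k * g⁻¹ = _
    rw [c.val k hk, tau_conj]

theorem post_apply (g : F22) (x : G) : (c.post g).ψ x = σ₀ g (c.ψ x) := rfl

/-- A chart at a conjugate. -/
noncomputable def pre (hS : Shape T) (g : G) {w : G} (hw : g * z * g⁻¹ = w) : Chart T w where
  ψ x := c.ψ (g⁻¹ * x * g)
  χ :=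
    { toFun := fun k => c.χ ⟨g⁻¹ * (k : G) * g, mem_centralizer (by
        have h := (commute_of_mem k.2).map (MulAut.conj g⁻¹)
        subst hw
        simpa only [MulAut.conj_apply, inv_inv, mul_assoc, inv_mul_cancel_left, inv_mul_cancel, mul_one] using h)⟩
      map_one' := by
        rw [← map_one c.χ]
        exact congrArg c.χ (Subtype.ext (by simp))
      map_mul' := fun a b => by
        rw [← map_mul]
        exact congrArg c.χ (Subtype.ext (by simp only [Subgroup.coe_mul]; group)) }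
  bij := by
    subst hw
    refine c.bij.comp ⟨fun x hx => ?_, fun x _ y _ h => mul_left_cancel (mul_right_cancel h), fun y hy =>
      ⟨g * y * g⁻¹, perp_conj hS g hy, by group⟩⟩
    have := perp_conj hS g⁻¹ hx
    rwa [inv_inv, show g⁻¹ * (g * z * g⁻¹) * g = z by group] at this
  ker k hk := by
    subst hw
    rcases c.ker _ hk with h | h
    · left
      calc (k : G) = g * (g⁻¹ * k * g) * g⁻¹ := by group
        _ = 1 := by rw [show g⁻¹ * (k : G) * g = 1 from h]; group
    · right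
      calc (k : G) = g * (g⁻¹ * k * g) * g⁻¹ := by group
        _ = g * z * g⁻¹ := by rw [show g⁻¹ * (k : G) * g = z from h]
  val k hk := by
    subst hw
    refine c.val _ ?_
    have := perp_conj hS g⁻¹ hk
    rwa [inv_inv, show g⁻¹ * (g * z * g⁻¹) * g = z by group] at this

/-- Move a given neighbour to a given point. -/
theorem exists_post (x : G) (v : Fin 3510) : ∃ g : F22, (c.post g).ψ x = v :=
  Fi22Conf.base.trans (c.ψ x) v

/-- An element at a member inside the closure of a set of neighbours. -/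
theorem exists_mem_of_chi {S : Set G} (hS' : S ⊆ perp T z) {g : F22}
    (hg : g ∈ Subgroup.closure ((fun x => τ₀ (c.ψ x)) '' S)) :
    ∃ k : Subgroup.centralizer ({z} : Set G), c.χ k = g ∧ (k : G) ∈ Subgroup.closure S := by
  induction hg using Subgroup.closure_induction with
  | mem u hu =>
    obtain ⟨x, hx, rfl⟩ := hu
    exact ⟨⟨x, mem_centralizer (hS' hx).2.2⟩, c.val ⟨x, mem_centralizer (hS' hx).2.2⟩ (hS' hx),
      Subgroup.subset_closure hx⟩
  | one => exact ⟨1, map_one _, one_mem _⟩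
  | mul u v _ _ hu hv =>
    obtain ⟨k, rfl, hk⟩ := hu
    obtain ⟨l, rfl, hl⟩ := hv
    exact ⟨k * l, map_mul _ _ _, mul_mem hk hl⟩
  | inv u _ hu =>
    obtain ⟨k, rfl, hk⟩ := hu
    exact ⟨k⁻¹, map_inv _ _, inv_mem hk⟩

end Chart

/-- Charts from the local data and an isomorphism to the presented group respecting the classes. -/
theorem exists_charts {Q : Type*} [Group Q] [Finite Q] {d : G} {D : Set Q} {C : Subgroup G} {π : C →* Q}
    {dC : C} (hs : Setup d C π dC D) (e : Q ≃* F22)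
    (he : e '' D = conjugatesOf (PresentedGroup.of Cfsg.Spor.Fi22.Gen.a : F22)) :
    ∀ z ∈ conjugatesOf d, Nonempty (Chart (conjugatesOf d) z) := by
  classical
  have hS := hs.shape
  have hmem : ∀ x : C, (x : G) ∈ perp (conjugatesOf d) d → ∃ v, τ₀ v = e (π x) := fun x hx =>
    (tau_range _).1 (he ▸ Set.mem_image_of_mem e ((hs.lifts).1 x hx))
  choose! q hq using hmem
  let χ : Subgroup.centralizer ({d} : Set G) →* F22 :=
    (e.toMonoidHom.comp π).comp (Subgroup.inclusion hs.cent.ge)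
  let ψ : G → Fin 3510 := fun x => if h : x ∈ C then q ⟨x, h⟩ else 0
  have hψ : ∀ x : C, (x : G) ∈ perp (conjugatesOf d) d → τ₀ (ψ x) = e (π x) := fun x hx => by
    rw [show ψ x = q x from dif_pos x.2]
    exact hq x hx
  have hC : ∀ x : G, x ∈ perp (conjugatesOf d) d → x ∈ C := fun x hx => (hs.mem_iff).2 hx.2.2
  have c₀ : Chart (conjugatesOf d) d :=
    { ψ := ψ
      χ := χ
      bij := by
        refine ⟨fun _ _ => Set.mem_univ _, fun x hx y hy h => ?_, fun v _ => ?_⟩
        · have h1 : π ⟨x, hC x hx⟩ = π ⟨y, hC y hy⟩ := e.injective (by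
            rw [← hψ ⟨x, hC x hx⟩ hx, ← hψ ⟨y, hC y hy⟩ hy]
            exact congrArg τ₀ h)
          exact congrArg Subtype.val ((hs.lifts).2.2 _ _ hx hy h1)
        · obtain ⟨q', hq', hv⟩ : τ₀ v ∈ e '' D := he ▸ (tau_range _).2 ⟨v, rfl⟩
          obtain ⟨x, hx, rfl⟩ := (hs.lifts).2.1 q' hq'
          exact ⟨x, hx, Fi22Conf.tau_inj ((hψ x hx).trans hv)⟩
      ker := fun k hk => by
        rcases (hs.double.ker _).1 (e.injective (hk.trans (map_one e).symm)) with h | h
        · left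
          exact congrArg Subtype.val h
        · right
          exact (congrArg Subtype.val h).trans hs.coe
      val := fun k hk => (hψ ⟨k, hC _ hk⟩ hk).symm }
  intro z hz
  obtain ⟨g, hg⟩ := hS.conj d mem_conjugatesOf_self z hz
  exact ⟨c₀.pre hS g hg⟩

end CfsgLib.Fischer.M23Recog
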