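import Cfsg.Agent.Lib.Fischer.M23Recog.Diameter

/-!
The local data of type M(23) force a class of 3-transpositions: the component of a member in the commuting graph
is a set of 3-transpositions, its stabiliser contains the centralizers of the products of two and of three
commuting members, hence every conjugate of a product of two, hence the whole set.
-/

set_option autoImplicit false
set_option linter.unusedSectionVars false

namespace CfsgLib.Fischer.M23Recog

open CfsgLib.Fischer CfsgLib.InvChar.FischerProducts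

variable {G : Type*} [Group G] {T : Set G} {d : G}

/-- The members within two steps. -/
def comp (T : Set G) (d : G) : Set G :=
  {x | x ∈ T ∧ (x = d ∨ x ∈ perp T d ∨ ∃ m ∈ perp T d, x ∈ perp T m)}

theorem comp_self (hd : d ∈ T) : d ∈ comp T d := ⟨hd, Or.inl rfl⟩

theorem conj_mem_comp (hS : Shape T) (g : G) {x y : G} (h : y ∈ comp T x) :
    g * y * g⁻¹ ∈ comp T (g * x * g⁻¹) := by
  refine ⟨hS.inv g y h.1, ?_⟩
  rcases h.2 with rfl | h | ⟨m, h1, h2⟩
  · exact Or.inl rfl
  · exact Or.inr (Or.inl (perp_conj hS g h))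
  · exact Or.inr (Or.inr ⟨_, perp_conj hS g h1, perp_conj hS g h2⟩)

/-- The stabiliser of the component. -/
def stab (T : Set G) (d : G) : Subgroup G where
  carrier := {g | ∀ x, g * x * g⁻¹ ∈ comp T d ↔ x ∈ comp T d}
  one_mem' := fun x => by simp
  mul_mem' := fun {g h} hg hh x => by
    rw [show g * h * x * (g * h)⁻¹ = g * (h * x * h⁻¹) * g⁻¹ by group, hg, hh]
  inv_mem' := fun {g} hg x => by
    rw [← hg (g⁻¹ * x * g⁻¹⁻¹), show g * (g⁻¹ * x * g⁻¹⁻¹) * g⁻¹ = x by group]

/-! ### The dihedral group of two involutions -/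

theorem semiconj_pow {a b : G} (ha : a * a = 1) (hb : b * b = 1) (k : ℕ) :
    a * (a * b) ^ k = (b * a) ^ k * a ∧ b * (a * b) ^ k = (b * a) ^ k * b := by
  refine ⟨(SemiconjBy.pow_right ?_ k : _), (SemiconjBy.pow_right ?_ k : _)⟩
  · show a * (a * b) = b * a * a
    rw [← mul_assoc, ha, mul_assoc, ha, one_mul, mul_one]
  · show b * (a * b) = b * a * b
    rw [mul_assoc]

theorem pow_inv {a b : G} (ha : a * a = 1) (hb : b * b = 1) (k : ℕ) : ((b * a) ^ k)⁻¹ = (a * b) ^ k := by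
  rw [← inv_pow, mul_inv_rev, inv_eq_of_mul_eq_one_left ha, inv_eq_of_mul_eq_one_left hb]

theorem odd_conj {a b : G} (ha : a * a = 1) (hb : b * b = 1) (ho : Odd (orderOf (a * b)))
    {S : Subgroup G} (haS : a ∈ S) (hbS : b ∈ S) : ∃ t ∈ S, t * a * t⁻¹ = b := by
  obtain ⟨k, hk⟩ := ho
  refine ⟨a * (b * a) ^ k, S.mul_mem haS (S.pow_mem (S.mul_mem hbS haS) k), ?_⟩
  have h1 : (b * a) ^ k * a * ((b * a) ^ k)⁻¹ = a * (a * b) ^ (2 * k) := by
    rw [pow_inv ha hb, ← (semiconj_pow ha hb k).1, mul_assoc, ← pow_add, two_mul]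
  have h2 : (a * b) ^ (2 * k) = b * a := by
    have : (a * b) ^ (2 * k) * (a * b) = 1 := by rw [← pow_succ, ← hk, pow_orderOf_eq_one]
    rw [eq_inv_of_mul_eq_one_left this, mul_inv_rev, inv_eq_of_mul_eq_one_left ha,
      inv_eq_of_mul_eq_one_left hb]
  rw [h2] at h1
  calc a * (b * a) ^ k * a * (a * (b * a) ^ k)⁻¹ = a * ((b * a) ^ k * a * ((b * a) ^ k)⁻¹) * a⁻¹ := by group
    _ = a * (a * (b * a)) * a⁻¹ := by rw [h1]
    _ = (a * a) * b * (a * a⁻¹) := by group
    _ = b := by rw [ha, mul_inv_cancel, one_mul, mul_one]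

theorem even_case {a b : G} (ha : a * a = 1) (hb : b * b = 1) [Finite G]
    (ho : ¬ Odd (orderOf (a * b))) {S : Subgroup G} (haS : a ∈ S) (hbS : b ∈ S) :
    ∃ v ∈ S, Commute a v ∧ Commute b v ∧ v ≠ 1 ∧ v * v = 1 ∧
      ((∃ t ∈ S, Commute t v ∧ t * b * t⁻¹ = a * v) ∨
        ∃ r ∈ S, r * r = 1 ∧ r * a * r⁻¹ = a * v ∧ ∃ t : G, r = t * a * t⁻¹ ∨ r = t * b * t⁻¹) := by
  obtain ⟨n, hn⟩ := Nat.not_odd_iff_even.1 ho
  have hpos : 0 < orderOf (a * b) := orderOf_pos _
  have hvS : (a * b) ^ n ∈ S := S.pow_mem (S.mul_mem haS hbS) n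
  have hvv : (a * b) ^ n * (a * b) ^ n = 1 := by rw [← pow_add, ← hn, pow_orderOf_eq_one]
  have hinv : (b * a) ^ n = (a * b) ^ n := by
    rw [← inv_inv ((b * a) ^ n), pow_inv ha hb, inv_eq_of_mul_eq_one_left hvv]
  have hav : Commute a ((a * b) ^ n) := by
    show a * (a * b) ^ n = (a * b) ^ n * a
    rw [(semiconj_pow ha hb n).1, hinv]
  have hbv : Commute b ((a * b) ^ n) := by
    show b * (a * b) ^ n = (a * b) ^ n * b
    rw [(semiconj_pow ha hb n).2, hinv]
  refine ⟨_, hvS, hav, hbv, pow_ne_one_of_lt_orderOf (by omega) (by omega), hvv, ?_⟩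
  rcases Nat.even_or_odd' n with ⟨m, rfl | rfl⟩
  · right
    refine ⟨a * (a * b) ^ m, S.mul_mem haS (S.pow_mem (S.mul_mem haS hbS) m), ?_, ?_, ?_⟩
    · nth_rw 1 [(semiconj_pow ha hb m).1]
      rw [show (b * a) ^ m * a * (a * (a * b) ^ m) = (b * a) ^ m * (a * a) * (a * b) ^ m by group, ha,
        mul_one, ← pow_inv ha hb, mul_inv_cancel]
    · have hinvr : (a * (a * b) ^ m)⁻¹ = (b * a) ^ m * a := by
        rw [mul_inv_rev, ← pow_inv ha hb, inv_inv, inv_eq_of_mul_eq_one_left ha]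
      rw [hinvr, ← (semiconj_pow ha hb m).1,
        show a * (a * b) ^ m * a * (a * (a * b) ^ m) = a * ((a * b) ^ m * (a * a) * (a * b) ^ m) by group,
        ha, mul_one, ← pow_add, two_mul]
    · rcases Nat.even_or_odd' m with ⟨k, rfl | rfl⟩
      · refine ⟨(b * a) ^ k, Or.inl ?_⟩
        rw [pow_inv ha hb, ← (semiconj_pow ha hb k).1, mul_assoc, ← pow_add, two_mul]
      · refine ⟨(b * a) ^ k, Or.inr ?_⟩
        rw [pow_inv ha hb, ← (semiconj_pow ha hb k).2, mul_assoc b, ← pow_add, ← two_mul]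
        rw [pow_succ', ← mul_assoc a, ← mul_assoc a, ha, one_mul]
  · left
    refine ⟨(b * a) ^ m, S.pow_mem (S.mul_mem hbS haS) m, ((hbv.mul_left hav).pow_left m), ?_⟩
    rw [pow_inv ha hb, ← (semiconj_pow ha hb m).2, mul_assoc b, ← pow_add, ← two_mul,
      pow_succ', ← mul_assoc a, ← mul_assoc a, ha, one_mul]

variable [Finite G] (hS : Shape T) (hd : d ∈ T)
include hS hd

theorem perp_comp {x y : G} (hx : x ∈ comp T d) (hy : y ∈ perp T x) : y ∈ comp T d := by
  refine ⟨hy.1, ?_⟩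
  have close : Commute d y → y = d ∨ y ∈ perp T d ∨ ∃ m ∈ perp T d, y ∈ perp T m := fun k => by
    by_cases e : y = d
    · exact Or.inl e
    · exact Or.inr (Or.inl ⟨hy.1, e, k⟩)
  rcases hx.2 with rfl | h | ⟨m, h1, h2⟩
  · exact Or.inr (Or.inl hy)
  · exact Or.inr (Or.inr ⟨x, h, hy⟩)
  · by_cases hdx : Commute d x
    · by_cases e : x = d
      · exact Or.inr (Or.inl (e ▸ hy))
      · exact Or.inr (Or.inr ⟨x, ⟨hx.1, e, hdx⟩, hy⟩)
    rcases path_three hS (c := m) ⟨h1, perp_symm h1.1 h2⟩ hdx hd hx.1 hy with k | ⟨m', hm', k1, k2, k3, k4⟩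
    · exact close k
    · exact Or.inr (Or.inr ⟨m', ⟨hm', k2, k1⟩, hy.1, k4.symm, k3⟩)

theorem comp_eq {x : G} (hx : x ∈ comp T d) : comp T x = comp T d := by
  have hsub : ∀ {a b : G}, a ∈ T → b ∈ comp T a → comp T b ⊆ comp T a := by
    intro a b ha hb z hz
    rcases hz.2 with rfl | h | ⟨m, h1, h2⟩
    · exact hb
    · exact perp_comp hS ha hb h
    · exact perp_comp hS ha (perp_comp hS ha hb h1) h2
  refine Set.Subset.antisymm (hsub hd hx) (hsub hx.1 ⟨hd, ?_⟩)
  rcases hx.2 with rfl | h | ⟨m, h1, h2⟩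
  · exact Or.inl rfl
  · exact Or.inr (Or.inl (perp_symm hd h))
  · exact Or.inr (Or.inr ⟨m, perp_symm h1.1 h2, perp_symm hd h1⟩)

theorem commute_comp {x y : G} (hx : x ∈ comp T d) (hy : y ∈ T) (h : Commute x y) : y ∈ comp T d := by
  by_cases e : y = x
  · exact e ▸ hx
  · exact perp_comp hS hd hx ⟨hy, e, h⟩

theorem transpositionSet_comp : Cfsg.IsThreeTranspositionSet (comp T d) := by
  refine ⟨fun x hx => hS.order x hx.1, fun x hx y hy => ?_⟩
  have hy' : y ∈ comp T x := by rwa [comp_eq hS hd hx]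
  have hcomm : Commute x y → (x * y) ^ 2 = 1 := fun h => by
    rw [h.mul_pow, pow_two, pow_two, sq_one hS hx.1, sq_one hS hy.1, one_mul]
  rcases hy'.2 with rfl | h | ⟨m, h1, h2⟩
  · exact Or.inl (hcomm (Commute.refl _))
  · exact Or.inl (hcomm h.2.2)
  · rcases hS.cube m h1.1 x (perp_symm hx.1 h1) y h2 with k | k
    · exact Or.inl (hcomm k)
    · exact Or.inr k

theorem mem_stab_of {g x : G} (hx : x ∈ comp T d) (hgx : g * x * g⁻¹ ∈ comp T d) : g ∈ stab T d := by
  intro y
  refine ⟨fun h => ?_, fun h => ?_⟩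
  · rw [← comp_eq hS hd hgx] at h
    have := conj_mem_comp hS g⁻¹ h
    rw [show g⁻¹ * (g * y * g⁻¹) * g⁻¹⁻¹ = y by group, show g⁻¹ * (g * x * g⁻¹) * g⁻¹⁻¹ = x by group,
      comp_eq hS hd hx] at this
    exact this
  · rw [← comp_eq hS hd hx] at h
    have := conj_mem_comp hS g h
    rwa [comp_eq hS hd hgx] at this

theorem centralizer_stab {g x : G} (hx : x ∈ comp T d) (h : Commute g x) : g ∈ stab T d :=
  mem_stab_of hS hd hx (by rwa [h.eq, mul_inv_cancel_right])

theorem swap_fixed {a r : G} (ha : a ∈ comp T d) (hr : r ∈ comp T d)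
    (h : Commute a (r * a * r⁻¹)) : r * a * r⁻¹ = a := by
  by_contra hne
  have hra : ¬ Commute r a := fun k => hne (by rw [k.eq, mul_inv_cancel_right])
  refine not_commute_third_right (transpositionSet_comp hS hd) hr ha hra ?_
  rw [inv_self hS hr.1] at h
  exact h

/-- A member stabilising the component lies in it. -/
theorem comp_of_stab {b : G} (hb : b ∈ T) (hbs : b ∈ stab T d) : b ∈ comp T d := by
  have hdc := comp_self (T := T) hd
  have hds : d ∈ stab T d := centralizer_stab hS hd hdc (Commute.refl d)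
  by_cases ho : Odd (orderOf (d * b))
  · obtain ⟨t, ht, rfl⟩ := odd_conj (sq_one hS hd) (sq_one hS hb) ho hds hbs
    exact (ht d).2 hdc
  obtain ⟨v, -, hdv, -, hv1, hvv, hcase⟩ := even_case (sq_one hS hd) (sq_one hS hb) ho hds hbs
  have hf : ∀ g : G, ∀ x ∈ T, g * x * g⁻¹ = d * v → d * v ∈ comp T d := by
    intro g x hx e
    exact commute_comp hS hd hdc (e ▸ hS.inv g x hx) ((Commute.refl d).mul_right hdv)
  rcases hcase with ⟨t, ht, -, e⟩ | ⟨r, hr, hrr, e, t, hconj⟩
  · exact (ht b).1 (e ▸ hf t b hb e)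
  exfalso
  have hrT : r ∈ T := by
    rcases hconj with rfl | rfl
    exacts [hS.inv t d hd, hS.inv t b hb]
  have hfc := hf r d hd e
  have hfne : d * v ≠ d := fun k => hv1 (mul_eq_left.1 k)
  have hfd : d * v ∈ perp T d := ⟨hfc.1, hfne, (Commute.refl d).mul_right hdv⟩
  have hrinv : r⁻¹ = r := inv_eq_of_mul_eq_one_left hrr
  have e' : r * (d * v) * r⁻¹ = d := by
    rw [← e, hrinv, show r * (r * d * r) * r = (r * r) * d * (r * r) by group, hrr, one_mul, mul_one]
  have hX : ∀ x ∈ both T d (d * v), r * x * r⁻¹ ∈ both T d (d * v) := by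
    intro x hx
    have := both_conj hS r hx
    rwa [e, e', both_comm] at this
  let π : Equiv.Perm (both T d (d * v)) :=
    { toFun := fun x => ⟨_, hX x x.2⟩
      invFun := fun x => ⟨_, hX x x.2⟩
      left_inv := fun x => Subtype.ext (by
        show r * (r * x.1 * r⁻¹) * r⁻¹ = x.1
        rw [hrinv, show r * (r * x.1 * r) * r = (r * r) * x.1 * (r * r) by group, hrr, one_mul, mul_one])
      right_inv := fun x => Subtype.ext (by
        show r * (r * x.1 * r⁻¹) * r⁻¹ = x.1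
        rw [hrinv, show r * (r * x.1 * r) * r = (r * r) * x.1 * (r * r) by group, hrr, one_mul, mul_one]) }
  haveI := Fintype.ofFinite (both T d (d * v))
  obtain ⟨⟨m, hm⟩, hfix⟩ := Equiv.Perm.exists_fixed_point_of_prime (p := 2) (n := 1)
    (by rw [← Nat.card_eq_fintype_card, Nat.card_coe_set_eq, hS.card_pair d hd _ hfd]; decide)
    (σ := π) (by ext x; show r * (r * x.1 * r⁻¹) * r⁻¹ = x.1
                 rw [hrinv, show r * (r * x.1 * r) * r = (r * r) * x.1 * (r * r) by group, hrr, one_mul,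
                   mul_one])
  have hmr : Commute m r := by
    have k : r * m * r⁻¹ = m := congrArg Subtype.val hfix
    exact (mul_inv_eq_iff_eq_mul.1 k).symm
  have hrc := commute_comp hS hd (perp_comp hS hd hdc hm.1) hrT hmr
  exact hfne (e ▸ swap_fixed hS hd hdc hrc (by rw [e]; exact hfd.2.2))

/-- A member outside the component and a member inside. -/
theorem dichotomy {a b : G} (ha : a ∈ comp T d) (hb : b ∈ T) (hbc : b ∉ comp T d) {S : Subgroup G}
    (haS : a ∈ S) (hbS : b ∈ S) : (∃ t ∈ S, t * a * t⁻¹ = b) ∨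
      ∃ f ∈ perp T a, Commute b (a * f) ∧ f ∈ S ∧ ∃ t ∈ S, Commute t (a * f) ∧ t * f * t⁻¹ = b := by
  by_cases ho : Odd (orderOf (a * b))
  · exact Or.inl (odd_conj (sq_one hS ha.1) (sq_one hS hb) ho haS hbS)
  obtain ⟨v, hvS, hav, hbv, hv1, -, hcase⟩ := even_case (sq_one hS ha.1) (sq_one hS hb) ho haS hbS
  have hfne : a * v ≠ a := fun k => hv1 (mul_eq_left.1 k)
  rcases hcase with ⟨t, ht, htv, e⟩ | ⟨r, -, hrr, e, t, hconj⟩
  · right
    refine ⟨a * v, ⟨e ▸ hS.inv t b hb, hfne, (Commute.refl a).mul_right hav⟩, ?_, S.mul_mem haS hvS,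
      t⁻¹, S.inv_mem ht, ?_, ?_⟩
    · rwa [← mul_assoc, sq_one hS ha.1, one_mul]
    · rw [← mul_assoc, sq_one hS ha.1, one_mul]
      exact htv.inv_left
    · rw [← e]; group
  exfalso
  have hrT : r ∈ T := by
    rcases hconj with rfl | rfl
    exacts [hS.inv t a ha.1, hS.inv t b hb]
  have hfc : r * a * r⁻¹ ∈ comp T d :=
    commute_comp hS hd ha (hS.inv r a ha.1) (by rw [e]; exact (Commute.refl a).mul_right hav)
  have hrc := comp_of_stab hS hd hrT (mem_stab_of hS hd ha hfc)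
  exact hfne (e ▸ swap_fixed hS hd ha hrc (by rw [e]; exact (Commute.refl a).mul_right hav))

theorem short_pair {z x y : G} (hz : z ∈ comp T d) (hx : x ∈ comp T d) (hy : y ∈ perp T x)
    (h : Commute z (x * y)) : Commute z x ∧ Commute z y := by
  have hyc := perp_comp hS hd hx hy
  have := commute_of_short (transpositionSet_comp hS hd) hz (l := [x, y]) (by simp [hx, hyc])
    (by simp [hy.2.1.symm]) (by simp [hy.2.2, hy.2.2.symm]) (by simpa using h) (by simp)
  exact ⟨this x (by simp), this y (by simp)⟩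

/-- No element fixing the product of a pair moves a common neighbour to one of the pair. -/
theorem not_conj_both {x y f g : G} (hx : x ∈ comp T d) (hy : y ∈ perp T x) (hf : f ∈ both T x y)
    (hg : Commute g (x * y)) : g * f * g⁻¹ ≠ x := by
  intro e
  have hfc : f ∈ comp T d := perp_comp hS hd hx hf.1
  have hmap : ∀ z ∈ both T x y,
      g⁻¹ * z * g⁻¹⁻¹ ∈ ({x, y, f} : Set G) ∪ (both T x y ∩ perp T f) := by
    intro z hz
    have e1 : g⁻¹ * x * g⁻¹⁻¹ = f := by rw [← e]; group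
    have e2 : g⁻¹ * (x * y) * g⁻¹⁻¹ = x * y := by rw [hg.inv_left.eq, mul_inv_cancel_right]
    have hwT := hS.inv g⁻¹ z hz.1.1
    have k1 : Commute (g⁻¹ * x * g⁻¹⁻¹) (g⁻¹ * z * g⁻¹⁻¹) := hz.1.2.2.map (MulAut.conj g⁻¹)
    have k2 : Commute (g⁻¹ * z * g⁻¹⁻¹) (g⁻¹ * (x * y) * g⁻¹⁻¹) :=
      (hz.1.2.2.symm.mul_right hz.2.2.2.symm).map (MulAut.conj g⁻¹)
    rw [e1] at k1
    rw [e2] at k2
    obtain ⟨c1, c2⟩ := short_pair hS hd (commute_comp hS hd hfc hwT k1) hx hy k2
    by_cases w1 : g⁻¹ * z * g⁻¹⁻¹ = x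
    · exact Or.inl (Or.inl w1)
    by_cases w2 : g⁻¹ * z * g⁻¹⁻¹ = y
    · exact Or.inl (Or.inr (Or.inl w2))
    by_cases w3 : g⁻¹ * z * g⁻¹⁻¹ = f
    · exact Or.inl (Or.inr (Or.inr w3))
    exact Or.inr ⟨⟨⟨hwT, w1, c1.symm⟩, ⟨hwT, w2, c2.symm⟩⟩, hwT, w3, k1⟩
  have hle := Set.ncard_le_ncard_of_injOn _ hmap (fun z _ z' _ h => (MulAut.conj g⁻¹).injective h)
  have := Set.ncard_union_le ({x, y, f} : Set G) (both T x y ∩ perp T f)
  have h3 : ({x, y, f} : Set G).ncard ≤ 3 := by
    refine (Set.ncard_insert_le _ _).trans ?_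
    have := Set.ncard_insert_le y ({f} : Set G)
    rw [Set.ncard_singleton] at this
    omega
  rw [hS.card_triangle x hx.1 y hy f hf] at this
  rw [hS.card_pair x hx.1 y hy] at hle
  omega

/-- The member of a pair is not conjugate under the centralizer of the product to a member outside. -/
theorem pair_conj_comp {x y b t : G} (hx : x ∈ comp T d) (hy : y ∈ perp T x) (hb : b ∈ T)
    (hbxy : Commute b (x * y)) (ht : Commute t (x * y)) (he : t * x * t⁻¹ = b) : b ∈ comp T d := by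
  by_contra hbc
  have hxx := sq_one hS hx.1
  have hyy := sq_one hS hy.1
  have hxy : Commute x y := hy.2.2
  have key : ∀ f ∈ both T x y, Commute b (x * f) := by
    intro f hf
    have hfS : f ∈ Subgroup.centralizer ({x * y} : Set G) :=
      Subgroup.mem_centralizer_singleton_iff.2 (hf.1.2.2.symm.mul_right hf.2.2.2.symm).eq
    have hbS : b ∈ Subgroup.centralizer ({x * y} : Set G) := Subgroup.mem_centralizer_singleton_iff.2 hbxy.eq
    rcases dichotomy hS hd (perp_comp hS hd hx hf.1) hb hbc hfS hbS with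
      ⟨t', ht', e'⟩ | ⟨h, hh, hbh, hhS, t', ht', -, e'⟩
    · refine absurd ?_ (not_conj_both hS hd hx hy hf (g := t⁻¹ * t')
        ((Commute.inv_left ht).mul_left (Subgroup.mem_centralizer_singleton_iff.1 ht')))
      rw [show t⁻¹ * t' * f * (t⁻¹ * t')⁻¹ = t⁻¹ * (t' * f * t'⁻¹) * t by group, e', ← he]
      group
    · have hhc : h ∈ comp T d := perp_comp hS hd (perp_comp hS hd hx hf.1) hh
      obtain ⟨c1, c2⟩ := short_pair hS hd hhc hx hy (Subgroup.mem_centralizer_singleton_iff.1 hhS)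
      by_cases w1 : h = x
      · subst w1
        rwa [hh.2.2.eq] at hbh
      by_cases w2 : h = y
      · subst w2
        have := hbh.mul_right hbxy
        rwa [show f * h * (x * h) = f * (h * x) * h by group, ← hxy.eq,
          show f * (x * h) * h = f * x * (h * h) by group, hyy, mul_one, hf.1.2.2.symm.eq] at this
      refine absurd ?_ (not_conj_both hS hd hx hy (f := h) ⟨⟨hh.1, w1, c1.symm⟩, hh.1, w2, c2.symm⟩
        (g := t⁻¹ * t') ((Commute.inv_left ht).mul_left (Subgroup.mem_centralizer_singleton_iff.1 ht')))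
      rw [show t⁻¹ * t' * h * (t⁻¹ * t')⁻¹ = t⁻¹ * (t' * h * t'⁻¹) * t by group, e', ← he]
      group
  obtain ⟨l, hlen, hl, -, hsix⟩ := hS.six x hx.1 y hy
  have hind : ∀ l' : List G, (∀ h ∈ l', h ∈ both T x y) → Commute b (x ^ l'.length * l'.prod) := by
    intro l'
    induction l' with
    | nil => intro; simp
    | cons f l' ih =>
      intro hl'
      have hf := hl' f List.mem_cons_self
      have := (key f hf).mul_right (ih fun h hh => hl' h (List.mem_cons_of_mem _ hh))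
      rwa [show x * f * (x ^ l'.length * l'.prod) = x * (f * x ^ l'.length) * l'.prod by group,
        ((hf.1.2.2.symm.pow_right l'.length).eq : f * x ^ l'.length = x ^ l'.length * f), ← mul_assoc x,
        ← pow_succ', mul_assoc, ← List.prod_cons, ← List.length_cons (a := f)] at this
  have hpr : l.prod = y * x := by
    calc l.prod = y * (y * l.prod) := by rw [← mul_assoc, hyy, one_mul]
      _ = y * x := by rw [← hsix]
  have h5 := hind l hl
  rw [hlen, hpr, show x ^ 5 = (x * x) * (x * x) * x by simp [pow_succ, mul_assoc], hxx, one_mul, one_mul, ← hxy.eq,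
    ← mul_assoc, hxx, one_mul] at h5
  exact hbc (commute_comp hS hd (perp_comp hS hd hx hy) hb h5.symm)

theorem duad_inter {x y b : G} (hx : x ∈ comp T d) (hy : y ∈ perp T x) (hb : b ∈ T)
    (hbxy : Commute b (x * y)) : b ∈ comp T d := by
  by_contra hbc
  have hxS : x ∈ Subgroup.centralizer ({x * y} : Set G) :=
    Subgroup.mem_centralizer_singleton_iff.2 ((Commute.refl x).mul_right hy.2.2).eq
  have hbS : b ∈ Subgroup.centralizer ({x * y} : Set G) := Subgroup.mem_centralizer_singleton_iff.2 hbxy.eq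
  rcases dichotomy hS hd hx hb hbc hxS hbS with ⟨t, ht, e⟩ | ⟨f, hf, hbf, hfS, t, ht, htf, e⟩
  · exact hbc (pair_conj_comp hS hd hx hy hb hbxy (Subgroup.mem_centralizer_singleton_iff.1 ht) e)
  · have hfc := perp_comp hS hd hx hf
    obtain ⟨-, c2⟩ := short_pair hS hd hfc hx hy (Subgroup.mem_centralizer_singleton_iff.1 hfS)
    by_cases w : f = y
    · subst w
      rw [hy.2.2.eq] at hbxy htf
      exact hbc (pair_conj_comp hS hd hfc (perp_symm hx.1 hy) hb hbxy htf e)
    · rw [hf.2.2.eq] at hbf htf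
      exact hbc (pair_conj_comp hS hd hfc (perp_symm hx.1 hf) hb hbf htf e)

theorem duad_cent {x y g : G} (hx : x ∈ comp T d) (hy : y ∈ perp T x) (hg : Commute g (x * y)) :
    g ∈ stab T d := by
  refine mem_stab_of hS hd hx (duad_inter hS hd hx hy (hS.inv g x hx.1) ?_)
  have := ((Commute.refl x).mul_right hy.2.2).map (MulAut.conj g)
  simp only [MulAut.conj_apply] at this
  rwa [show g * (x * y) * g⁻¹ = x * y by rw [hg.eq, mul_inv_cancel_right]] at this

theorem exists_conj {a b : G} (ha : a ∈ comp T d) (hb : b ∈ T) (hbc : b ∉ comp T d) {S : Subgroup G}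
    (haS : a ∈ S) (hbS : b ∈ S) : ∃ t ∈ S, t * a * t⁻¹ = b := by
  rcases dichotomy hS hd ha hb hbc haS hbS with h | ⟨f, hf, hbf, -⟩
  · exact h
  · exact absurd (duad_inter hS hd ha hf hb hbf) hbc

theorem triad_inter {x y z b : G} (hx : x ∈ comp T d) (hy : y ∈ perp T x) (hz : z ∈ both T x y) (hb : b ∈ T)
    (hj : Commute b (x * (y * z))) : b ∈ comp T d := by
  by_contra hbc
  have hyc := perp_comp hS hd hx hy
  have hzc := perp_comp hS hd hx hz.1
  obtain ⟨f, hf⟩ := Set.nonempty_of_ncard_ne_zero (s := both T x y ∩ perp T z)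
    (by rw [hS.card_triangle x hx.1 y hy z hz]; decide)
  have hfc := perp_comp hS hd hx hf.1.1
  have hcj : ∀ {w : G}, Commute w x → Commute w y → Commute w z →
      w ∈ Subgroup.centralizer ({x * (y * z)} : Set G) := fun h1 h2 h3 =>
    Subgroup.mem_centralizer_singleton_iff.2 (h1.mul_right (h2.mul_right h3)).eq
  have hbS : b ∈ Subgroup.centralizer ({x * (y * z)} : Set G) := Subgroup.mem_centralizer_singleton_iff.2 hj.eq
  obtain ⟨t, ht, e⟩ := exists_conj hS hd hx hb hbc (hcj (Commute.refl x) hy.2.2 hz.1.2.2) hbS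
  obtain ⟨t', ht', e'⟩ := exists_conj hS hd hfc hb hbc
    (hcj hf.1.1.2.2.symm hf.1.2.2.2.symm hf.2.2.2.symm) hbS
  obtain ⟨g, hg⟩ : ∃ g, g = t'⁻¹ * t := ⟨_, rfl⟩
  have hgj : Commute g (x * (y * z)) := by
    rw [hg]
    exact (Commute.inv_left (Subgroup.mem_centralizer_singleton_iff.1 ht')).mul_left
      (Subgroup.mem_centralizer_singleton_iff.1 ht)
  have hgx : g * x * g⁻¹ = f := by
    rw [hg, show t'⁻¹ * t * x * (t'⁻¹ * t)⁻¹ = t'⁻¹ * (t * x * t⁻¹) * t' by group, e, ← e']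
    group
  have hmap : ∀ w ∈ both T x y ∩ perp T z,
      g * w * g⁻¹ ∈ ({x, y, z, f} : Set G) ∪ (both T x y ∩ both T z f) := by
    intro w hw
    have hwT := hS.inv g w hw.1.1.1
    have k1 : Commute (g * x * g⁻¹) (g * w * g⁻¹) := hw.1.1.2.2.map (MulAut.conj g)
    have k2 : Commute (g * w * g⁻¹) (g * (x * (y * z)) * g⁻¹) :=
      (hw.1.1.2.2.symm.mul_right (hw.1.2.2.2.symm.mul_right hw.2.2.2.symm)).map (MulAut.conj g)
    rw [hgx] at k1
    rw [hgj.eq, mul_inv_cancel_right] at k2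
    have hlist := commute_of_short (transpositionSet_comp hS hd) (commute_comp hS hd hfc hwT k1) (l := [x, y, z])
      (by simp [hx, hyc, hzc]) (by simp [hy.2.1.symm, hz.1.2.1.symm, hz.2.2.1.symm])
      (by simp [hy.2.2, hy.2.2.symm, hz.1.2.2, hz.1.2.2.symm, hz.2.2.2, hz.2.2.2.symm])
      (by simpa using k2) (by simp)
    by_cases w1 : g * w * g⁻¹ = x
    · exact Or.inl (Or.inl w1)
    by_cases w2 : g * w * g⁻¹ = y
    · exact Or.inl (Or.inr (Or.inl w2))
    by_cases w3 : g * w * g⁻¹ = z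
    · exact Or.inl (Or.inr (Or.inr (Or.inl w3)))
    by_cases w4 : g * w * g⁻¹ = f
    · exact Or.inl (Or.inr (Or.inr (Or.inr w4)))
    exact Or.inr ⟨⟨⟨hwT, w1, (hlist x (by simp)).symm⟩, ⟨hwT, w2, (hlist y (by simp)).symm⟩⟩,
      ⟨hwT, w3, (hlist z (by simp)).symm⟩, hwT, w4, k1⟩
  have hle := Set.ncard_le_ncard_of_injOn _ hmap (fun w _ w' _ h => (MulAut.conj g).injective h)
  have := Set.ncard_union_le ({x, y, z, f} : Set G) (both T x y ∩ both T z f)
  have h4 : ({x, y, z, f} : Set G).ncard ≤ 4 := by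
    have e1 := Set.ncard_insert_le x ({y, z, f} : Set G)
    have e2 := Set.ncard_insert_le y ({z, f} : Set G)
    have e3 := Set.ncard_insert_le z ({f} : Set G)
    rw [Set.ncard_singleton] at e3
    omega
  rw [hS.card_four x hx.1 y hy z hz f hf] at this
  rw [hS.card_triangle x hx.1 y hy z hz] at hle
  omega

theorem triad_cent {x y z g : G} (hx : x ∈ comp T d) (hy : y ∈ perp T x) (hz : z ∈ both T x y)
    (hg : Commute g (x * (y * z))) : g ∈ stab T d := by
  refine mem_stab_of hS hd hx (triad_inter hS hd hx hy hz (hS.inv g x hx.1) ?_)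
  have := ((Commute.refl x).mul_right (hy.2.2.mul_right hz.1.2.2)).map (MulAut.conj g)
  simp only [MulAut.conj_apply] at this
  rwa [show g * (x * (y * z)) * g⁻¹ = x * (y * z) by rw [hg.eq, mul_inv_cancel_right]] at this

/-- The centralizer of an involution centralizing a member of the component stabilises it. -/
theorem invol_cent {a i g : G} (ha : a ∈ comp T d) (hia : Commute i a) (hii : i * i = 1) (hi : i ≠ 1)
    (hg : Commute g i) : g ∈ stab T d := by
  rcases hS.invols a ha.1 i hia hii hi with h | ⟨x, hx, y, hy, rfl⟩ | ⟨x, hx, y, hy, z, hz, rfl⟩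
  · exact centralizer_stab hS hd (commute_comp hS hd ha h hia.symm) hg
  · have := duad_inter hS hx (comp_self hx) hy ha.1 hia.symm
    have hxd : x ∈ comp T d := by
      rw [← comp_eq hS hd ha, comp_eq hS hx this]
      exact comp_self hx
    exact duad_cent hS hd hxd hy hg
  · have := triad_inter hS hx (comp_self hx) hy hz ha.1 hia.symm
    have hxd : x ∈ comp T d := by
      rw [← comp_eq hS hd ha, comp_eq hS hx this]
      exact comp_self hx
    exact triad_cent hS hd hxd hy hz hg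

theorem duad_conj_stab {x : G} (hx : x ∈ perp T d) (g : G) : g * (d * x) * g⁻¹ ∈ stab T d := by
  have hdd := sq_one hS hd
  have huu : g * (d * x) * g⁻¹ * (g * (d * x) * g⁻¹) = 1 := by
    calc g * (d * x) * g⁻¹ * (g * (d * x) * g⁻¹) = g * (d * (x * d) * x) * g⁻¹ := by group
      _ = g * ((d * d) * (x * x)) * g⁻¹ := by rw [← hx.2.2.eq]; group
      _ = 1 := by rw [hdd, sq_one hS hx.1]; group
  by_cases ho : Odd (orderOf (d * (g * (d * x) * g⁻¹)))
  · obtain ⟨t, -, e⟩ := odd_conj hdd huu ho (S := ⊤) (Subgroup.mem_top _) (Subgroup.mem_top _)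
    exfalso
    refine hS.duad d hd x hx ?_
    have := hS.inv g⁻¹ _ (e ▸ hS.inv t d hd)
    rwa [show g⁻¹ * (g * (d * x) * g⁻¹) * g⁻¹⁻¹ = d * x by group] at this
  · obtain ⟨v, -, hdv, huv, hv1, hvv, -⟩ := even_case hdd huu ho (S := ⊤) (Subgroup.mem_top _)
      (Subgroup.mem_top _)
    exact invol_cent hS hd (comp_self hd) hdv.symm hvv hv1 huv

theorem product_stab {a x : G} (ha : a ∈ T) (hx : x ∈ perp T a) : a * x ∈ stab T d := by
  obtain ⟨x₀, hx₀⟩ := Set.nonempty_of_ncard_ne_zero (s := perp T d) (by rw [hS.card_perp d hd]; decide)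
  obtain ⟨g, rfl⟩ := hS.conj d hd a ha
  have hx' := perp_conj hS g⁻¹ hx
  rw [show g⁻¹ * (g * d * g⁻¹) * g⁻¹⁻¹ = d by group] at hx'
  obtain ⟨k, hk, hkx⟩ := hS.trans d hd x₀ hx₀ _ hx'
  have := duad_conj_stab hS hd hx₀ (g * k)
  rwa [show g * k * (d * x₀) * (g * k)⁻¹ = g * ((k * d * k⁻¹) * (k * x₀ * k⁻¹)) * g⁻¹ by group, hkx,
    hk.eq, mul_inv_cancel_right,
    show g * (d * (g⁻¹ * x * g⁻¹⁻¹)) * g⁻¹ = g * d * g⁻¹ * x by group] at this

/-- The set is connected. -/
theorem comp_eq_self : comp T d = T := by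
  refine Set.Subset.antisymm (fun x h => h.1) fun a ha => comp_of_stab hS hd ha ?_
  obtain ⟨x, hx⟩ := Set.nonempty_of_ncard_ne_zero (s := perp T a) (by rw [hS.card_perp a ha]; decide)
  obtain ⟨l, hlen, hl, hcomm, hsix⟩ := hS.six a ha x hx
  obtain ⟨h1, h2, h3, h4, h5, rfl⟩ : ∃ h1 h2 h3 h4 h5, l = [h1, h2, h3, h4, h5] := by
    match l, hlen with
    | [h1, h2, h3, h4, h5], _ => exact ⟨h1, h2, h3, h4, h5, rfl⟩
  have hpair : ∀ p q : G, p ∈ [h1, h2, h3, h4, h5] → q ∈ [h1, h2, h3, h4, h5] → p * q ∈ stab T d := by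
    intro p q hp hq
    by_cases e : q = p
    · rw [e, sq_one hS (hl p hp).1.1]
      exact one_mem _
    · exact product_stab hS hd (hl p hp).1.1 ⟨(hl q hq).1.1, e, hcomm p hp q hq⟩
  have hx1 : x * h1 ∈ stab T d := product_stab hS hd hx.1 (hl h1 (by simp)).2
  rw [hsix]
  simp only [List.prod_cons, List.prod_nil, mul_one]
  rw [show x * (h1 * (h2 * (h3 * (h4 * h5)))) = (x * h1) * ((h2 * h3) * (h4 * h5)) by group]
  exact Subgroup.mul_mem _ hx1 (Subgroup.mul_mem _ (hpair h2 h3 (by simp) (by simp)) (hpair h4 h5 (by simp) (by simp)))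

/-- The set is one of 3-transpositions. -/
theorem transpositionSet : Cfsg.IsThreeTranspositionSet T := comp_eq_self hS hd ▸ transpositionSet_comp hS hd

/-- Adjacent members are conjugate in the group they generate. -/
theorem closure_conj {a : G} (ha : a ∈ T) : ∃ g ∈ Subgroup.closure T, g * d * g⁻¹ = a := by
  have step : ∀ {p q : G}, p ∈ T → q ∈ perp T p → ∃ g ∈ Subgroup.closure T, g * p * g⁻¹ = q := by
    intro p q hp hq
    obtain ⟨m, hm⟩ := Set.nonempty_of_ncard_ne_zero (s := both T p q) (by rw [hS.card_pair p hp q hq]; decide)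
    obtain ⟨g, hg, hgq⟩ := hS.trans m hm.1.1 p (perp_symm hp hm.1) q (perp_symm hq.1 hm.2)
    refine ⟨g, ?_, hgq⟩
    have : g ∈ Subgroup.closure (perp T m) := hS.gen m hm.1.1 ▸ Subgroup.mem_centralizer_singleton_iff.2 hg.eq
    exact Subgroup.closure_mono (fun u hu => hu.1) this
  rcases (show a ∈ comp T d by rw [comp_eq_self hS hd]; exact ha).2 with rfl | h | ⟨m, h1, h2⟩
  · exact ⟨1, one_mem _, by simp⟩
  · exact step hd h
  · obtain ⟨g, hg, rfl⟩ := step hd h1
    obtain ⟨k, hk, rfl⟩ := step h1.1 h2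
    exact ⟨k * g, mul_mem hk hg, by group⟩

/-- The set generates the group. -/
theorem closure_eq_top : Subgroup.closure T = ⊤ := by
  rw [eq_top_iff]
  intro g _
  obtain ⟨k, hk, hkd⟩ := closure_conj hS hd (hS.inv g d hd)
  have : Commute (k⁻¹ * g) d := by
    show k⁻¹ * g * d = d * (k⁻¹ * g)
    calc k⁻¹ * g * d = k⁻¹ * (g * d * g⁻¹) * g := by group
      _ = k⁻¹ * (k * d * k⁻¹) * g := by rw [hkd]
      _ = d * (k⁻¹ * g) := by group
  have h2 : k⁻¹ * g ∈ Subgroup.closure (perp T d) := hS.gen d hd ▸ Subgroup.mem_centralizer_singleton_iff.2 this.eq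
  have := mul_mem hk (Subgroup.closure_mono (fun u hu => hu.1) h2)
  rwa [mul_inv_cancel_left] at this

/-- The set is a class of 3-transpositions. -/
theorem transpositionGroup : Cfsg.IsThreeTranspositionGroup T :=
  ⟨transpositionSet hS hd, hS.inv, closure_eq_top hS hd⟩

end CfsgLib.Fischer.M23Recog
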