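import Cfsg.Agent.Lib.Fischer.M23Recog.Standard

/-!
A count of fixed points puts a far common neighbour into the expected set.
-/

set_option autoImplicit false
set_option linter.unusedSectionVars false

namespace CfsgLib.Fischer.M23Recog

open CfsgLib.Fischer
open CfsgLib.SporRecognition.CosetCert CfsgLib.SporRecognition.FischerAut
open CfsgLib.SporRecognition.Cert
open Cert

local notation "σ₀" => Fi22Conf.σ
local notation "τ₀" => Fi22Conf.τ
local notation "Tab" => Tabled Fi22Conf.τ Fi22Conf.σ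

/-- Exchange of a double count over a finite set and a list. -/
theorem sum_countP {α β : Type*} [DecidableEq α] (R : Finset α) (ys : List β) (p : α → β → Bool) :
    ∑ x ∈ R, ys.countP (p x) = (ys.map fun y => (R.filter fun x => p x y = true).card).sum := by
  induction ys with
  | nil => simp
  | cons y ys ih =>
    simp only [List.countP_cons, List.map_cons, List.sum_cons, Finset.sum_add_distrib, ih,
      Finset.card_filter]
    exact Nat.add_comm _ _

theorem ncard_three {α : Type*} {A B C : Set α} [Finite α] (hAB : Disjoint A B) (hAC : Disjoint A C)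
    (hBC : Disjoint B C) : (A ∪ B ∪ C).ncard = A.ncard + B.ncard + C.ncard := by
  rw [Set.ncard_union_eq (Set.disjoint_union_left.2 ⟨hAC, hBC⟩), Set.ncard_union_eq hAB]

variable {G : Type*} [Group G] [Finite G] {T : Set G}

/-- A far common neighbour lands in the set `S`. -/
theorem exists_good (hS : Shape T) {z b f : G} (hz : z ∈ T) (hb : b ∈ T)
    (hzb : ¬ Commute z b) (hf : f ∈ both T z b) (c : Chart T z) (hcf : c.ψ f = q6) {K : Nat}
    (hK : c.ψ '' (both T z b ∩ perp T f) = pts K)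
    {g : Fin 3510} {tg : Nat → Nat} (htg : Tab g tg) (hg : g ∈ pts K)
    (ys : List ((Nat → Nat) × Nat)) (a E : Nat) (exc : List Nat) (S : Nat)
    (hys : ∀ p ∈ ys, ∃ v : Fin 3510, (v : Nat) = p.2 ∧ Tab v p.1 ∧
      v ∈ pts K ∧ Nat.beq (tg v) v = true ∧ (v : Nat) ≠ g)
    (hF : ∀ p ∈ ys, {u : Fin 3510 | u ∈ pts K ∧ (Nat.beq (tg u) u && !(Nat.beq u g) &&
      (Nat.beq (p.1 u) u && !(Nat.beq u p.2))) = true}.ncard = 12)
    (hexc : allBelow 12 3510 (excStep w6 6 tg g S ys a exc) = true)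
    (hsum : (exc.map fun u => fixCount ys u - a).sum = E) (hnd : exc.Nodup)
    (hlt : 80 * a + E < 32 * ys.length) :
    ∃ x ∈ both T z b, c.ψ x ∈ pts S ∧ σ₀ (τ₀ q6) (c.ψ x) ≠ c.ψ x := by
  classical
  by_contra hno
  push Not at hno
  let N : Set G := both T z b ∩ perp T f
  have hNz : N ⊆ perp T z := fun x hx => hx.1.1
  have hpre : ∀ u ∈ pts K, ∃ x ∈ N, c.ψ x = u := fun u hu => by
    rw [← hK] at hu
    exact hu
  obtain ⟨g', hg', hcg⟩ := hpre g hg
  have hfz : f ∈ perp T z := hf.1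
  have hfg : f ∈ perp T g' := perp_symm hf.1.1 hg'.2
  -- the set of the far members
  let R : Set G := {x | x ∈ both T z b ∩ perp T g' ∧ x ≠ f ∧ x ∉ perp T f}
  have hsplit : ∀ U : Set G, U ⊆ both T z b → f ∈ U →
      U.ncard = 1 + (U ∩ perp T f).ncard + {x | x ∈ U ∧ x ≠ f ∧ x ∉ perp T f}.ncard := by
    intro U _ hfU
    rw [← Set.ncard_singleton f]
    rw [← ncard_three]
    · congr 1
      ext x
      simp only [Set.mem_union, Set.mem_singleton_iff, Set.mem_inter_iff, Set.mem_setOf_eq]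
      by_cases h1 : x = f <;> by_cases h2 : x ∈ perp T f <;> simp [h1, h2, hfU]
    · exact Set.disjoint_singleton_left.2 fun h => h.2.2.1 rfl
    · exact Set.disjoint_singleton_left.2 fun h => h.2.1 rfl
    · exact Set.disjoint_left.2 fun x h h' => h'.2.2 h.2
  have hgT : g' ∈ T := hg'.1.1.1
  have hzg : z ∈ perp T g' := perp_symm hz hg'.1.1
  have hbg : b ∈ perp T g' := perp_symm hb hg'.1.2
  have h126 : (both T z b ∩ perp T g').ncard = 126 := by
    rw [Set.inter_comm]
    exact hS.card_far g' hgT z hzg b hbg hzb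
  have hfar : ∀ y ∈ N, y ∈ perp T g' → (both T z b ∩ both T g' y).ncard = 45 := by
    intro y hy hyg
    rw [Set.inter_comm]
    refine hS.card_far_pair g' hgT y hyg z ⟨hzg, perp_symm hz hy.1.1⟩ b ⟨hbg, perp_symm hbg.1 hy.1.2⟩ hzb
  have hR : R.ncard = 80 := by
    have h1 := hsplit (both T z b ∩ perp T g') Set.inter_subset_left ⟨hf, hfg⟩
    have h2 : ((both T z b ∩ perp T g') ∩ perp T f).ncard = 45 := by
      have := hS.card_far_pair g' hgT f hfg z ⟨hzg, perp_symm hz hf.1⟩ b ⟨hbg, perp_symm hbg.1 hf.2⟩ hzb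
      rw [Set.inter_comm] at this
      rwa [Set.inter_assoc]
    rw [h126, h2] at h1
    show {x | x ∈ both T z b ∩ perp T g' ∧ x ≠ f ∧ x ∉ perp T f}.ncard = 80
    omega
  let hit : G → ((Nat → Nat) × Nat) → Bool := fun x p =>
    Nat.beq (p.1 (c.ψ x)) (c.ψ x) && !(Nat.beq (c.ψ x) p.2)
  have hcol : ∀ p ∈ ys, (R.toFinite.toFinset.filter fun x => hit x p = true).card = 32 := by
    intro p hp
    obtain ⟨v, hv, htv, hvK, hvg, hvne⟩ := hys p hp
    obtain ⟨y, hy, hcy⟩ := hpre v hvK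
    have hnb : ∀ x ∈ perp T z, (x ∈ perp T y ↔ hit x p = true) := fun x hx => by
      rw [c.mem_perp_iff hS (hNz hy) hx, hcy]
      show _ ↔ (Nat.beq (p.1 (c.ψ x)) (c.ψ x) && !(Nat.beq (c.ψ x) p.2)) = true
      rw [← hv]
      exact mem_nb_tab htv _
    have hyg : y ∈ perp T g' := by
      rw [c.mem_perp_iff hS (hNz hg') (hNz hy), hcg, hcy, fix_iff_beq htg]
      exact ⟨hvg, fun e => hvne (congrArg Fin.val e)⟩
    have h45 := hfar y hy hyg
    have h1 := hsplit (both T z b ∩ both T g' y) Set.inter_subset_left ⟨hf, hfg, perp_symm hf.1.1 hy.2⟩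
    have h2 : ((both T z b ∩ both T g' y) ∩ perp T f).ncard = 12 := by
      rw [← hF p hp]
      have hinj : Set.InjOn c.ψ ((both T z b ∩ both T g' y) ∩ perp T f) :=
        fun x hx x' hx' e => c.inj hx.1.1.1 hx'.1.1.1 e
      rw [← hinj.ncard_image]
      congr 1
      ext u
      have key : ∀ x ∈ perp T z, ((x ∈ perp T g' ∧ x ∈ perp T y) ↔ (Nat.beq (tg (c.ψ x)) (c.ψ x) &&
          !(Nat.beq (c.ψ x) g) && (Nat.beq (p.1 (c.ψ x)) (c.ψ x) && !(Nat.beq (c.ψ x) p.2))) = true) :=
        fun x hx => by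
          rw [Bool.and_eq_true, ← mem_nb_tab htg, ← hcg, c.mem_perp_iff hS (hNz hg') hx, hnb x hx]
          exact Iff.rfl
      constructor
      · rintro ⟨x, ⟨⟨hx1, hx2⟩, hx3⟩, rfl⟩
        exact ⟨hK ▸ ⟨x, ⟨hx1, hx3⟩, rfl⟩, (key x hx1.1).1 hx2⟩
      · rintro ⟨hu, hu'⟩
        obtain ⟨x, hx, rfl⟩ := hpre u hu
        exact ⟨x, ⟨⟨hx.1, (key x hx.1.1).2 hu'⟩, hx.2⟩, rfl⟩
    have hset : (↑(R.toFinite.toFinset.filter fun x => hit x p = true) : Set G) =
        {x | x ∈ both T z b ∩ both T g' y ∧ x ≠ f ∧ x ∉ perp T f} := by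
      ext x
      simp only [Finset.coe_filter, Set.Finite.mem_toFinset, Set.mem_setOf_eq]
      constructor
      · rintro ⟨⟨⟨h1, h2⟩, h3⟩, h4⟩
        exact ⟨⟨h1, h2, (hnb x h1.1).2 h4⟩, h3⟩
      · rintro ⟨⟨h1, h2, h4⟩, h3⟩
        exact ⟨⟨⟨h1, h2⟩, h3⟩, (hnb x h1.1).1 h4⟩
    rw [← Set.ncard_coe_finset, hset]
    omega
  -- the bound
  let F := R.toFinite.toFinset
  let extra : Nat → Nat := fun u => if u ∈ exc then fixCount ys u - a else 0
  have hpoint : ∀ x ∈ F, ys.countP (hit x) ≤ a + extra (c.ψ x) := by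
    intro x hx
    rw [Set.Finite.mem_toFinset] at hx
    obtain ⟨⟨hx1, hxg⟩, hxf, hxfp⟩ := hx
    have h := allBelow_spec hexc (c.ψ x) (c.ψ x).2
    have e1 : (Nat.beq (tg (c.ψ x)) (c.ψ x) && !(Nat.beq (c.ψ x) g)) = true := by
      rw [← mem_nb_tab htg, ← hcg]
      exact (c.mem_perp_iff hS (hNz hg') hx1.1).1 hxg
    have e2 : σ₀ (τ₀ q6) (c.ψ x) ≠ c.ψ x := by
      rw [← hcf, Ne, c.fix_iff hS hfz hx1.1]
      exact fun k => hxfp ⟨hx1.1.1, hxf, k⟩
    have e3 : inSet S (c.ψ x) = false := by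
      rw [← Bool.not_eq_true]
      exact fun k => e2 (hno x hx1 k)
    have e4 : Nat.beq (w6 (c.ψ x)) (c.ψ x) = false := by
      rw [← Bool.not_eq_true, ← fix_iff_beq tw6]
      exact e2
    rw [excStep, e1, e3, e4] at h
    simp only [Bool.not_false, Bool.and_self, Bool.true_and, cond_true, Bool.or_eq_true, Nat.ble_eq] at h
    have hc : ys.countP (hit x) = fixCount ys (c.ψ x) := (fixCount_eq ys _).symm
    rw [hc]
    rcases h with h | h
    · omega
    · have := mem_of_rec h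
      simp only [extra, if_pos this]
      omega
  have hupper : ∑ x ∈ F, extra (c.ψ x) ≤ E := by
    have hinj : Set.InjOn (fun x => (c.ψ x : Nat)) (F : Set G) := fun x hx y hy e => by
      simp only [Set.Finite.coe_toFinset, F] at hx hy
      exact c.inj hx.1.1.1 hy.1.1.1 (Fin.ext e)
    rw [← Finset.sum_image (g := fun x => (c.ψ x : Nat)) (f := extra) hinj, ← hsum,
      ← List.sum_toFinset _ hnd]
    refine le_trans (le_of_eq (Finset.sum_filter_of_ne (p := fun u => u ∈ exc) ?_).symm) ?_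
    · intro u _ hu
      by_contra hne
      exact hu (if_neg hne)
    refine le_trans (le_of_eq (Finset.sum_congr rfl fun u hu => if_pos (Finset.mem_filter.1 hu).2)) ?_
    exact Finset.sum_le_sum_of_subset fun u hu => List.mem_toFinset.2 (Finset.mem_filter.1 hu).2
  have htot : ∑ x ∈ F, ys.countP (hit x) = 32 * ys.length := by
    rw [sum_countP, List.map_congr_left hcol, List.map_const', List.sum_replicate, smul_eq_mul, Nat.mul_comm]
  have hle := Finset.sum_le_sum hpoint
  rw [htot, Finset.sum_add_distrib, Finset.sum_const, ← Set.ncard_eq_toFinset_card _ R.toFinite, hR,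
    smul_eq_mul] at hle
  omega

end CfsgLib.Fischer.M23Recog
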