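import Cfsg.Agent.Lib.Fischer.M23Recog.Shape

/-!
The local data of type M(23) force diameter two: along a path `a, c, z, w` the ends commute or have a common
neighbour. Otherwise the vertices of the neighbourhood of `z` without a neighbour in the set of common
neighbours of `a`, `c`, `z` would be at most 209 by a second moment count, but 252 conjugates of `w` are such.
-/

set_option autoImplicit false
set_option linter.unusedSectionVars false

namespace CfsgLib.Fischer.M23Recog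

open CfsgLib.Fischer

variable {G : Type*} [Group G] [Finite G] {T : Set G}

omit [Finite G] in
theorem transpositionSet_perp (hS : Shape T) {a : G} (ha : a ∈ T) :
    Cfsg.IsThreeTranspositionSet (perp T a) := by
  refine ⟨fun x hx => hS.order x hx.1, fun x hx y hy => ?_⟩
  rcases hS.cube a ha x hx y hy with h | h
  · left
    rw [h.mul_pow, pow_two, pow_two, sq_one hS hx.1, sq_one hS hy.1, one_mul]
  · exact Or.inr h

/-- The members commuting with `c` among the neighbours in a set. -/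
theorem card_split (hS : Shape T) {z c : G} (hc : c ∈ perp T z) {S : Set G} (hsub : S ⊆ perp T z)
    (hcS : c ∈ S) {n k : ℕ} (hn : S.ncard = n) (hk : (S ∩ perp T c).ncard = k) :
    ({u | u ∈ S ∧ ¬ Commute c u} : Set G).ncard + 1 + k = n := by
  have hdisj : Disjoint ({u | u ∈ S ∧ ¬ Commute c u} ∪ {c}) (S ∩ perp T c) := by
    rw [Set.disjoint_left]
    rintro u (⟨-, hu⟩ | rfl) hu'
    · exact hu hu'.2.2.2
    · exact hu'.2.2.1 rfl
  have hunion : S = ({u | u ∈ S ∧ ¬ Commute c u} ∪ {c}) ∪ (S ∩ perp T c) := by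
    ext u
    refine ⟨fun hu => ?_, ?_⟩
    · by_cases hcu : Commute c u
      · by_cases huc : u = c
        · exact Or.inl (Or.inr huc)
        · exact Or.inr ⟨hu, (hsub hu).1, huc, hcu⟩
      · exact Or.inl (Or.inl ⟨hu, hcu⟩)
    · rintro ((⟨hu, -⟩ | rfl) | ⟨hu, -⟩)
      exacts [hu, hcS, hu]
  have h1 : Disjoint ({u | u ∈ S ∧ ¬ Commute c u} : Set G) {c} := by
    rw [Set.disjoint_singleton_right]
    exact fun h => h.2 (Commute.refl c)
  rw [← hn, ← hk]
  conv_rhs => rw [hunion, Set.ncard_union_eq hdisj, Set.ncard_union_eq h1, Set.ncard_singleton]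

/-- A path of three steps closes. -/
theorem path_three (hS : Shape T) {a c z w : G} (hc : c ∈ both T a z) (haz : ¬ Commute a z)
    (ha : a ∈ T) (hz : z ∈ T) (hw : w ∈ perp T z) :
    Commute a w ∨ ∃ m ∈ T, Commute a m ∧ m ≠ a ∧ Commute m w ∧ m ≠ w := by
  classical
  by_contra hfail
  push Not at hfail
  obtain ⟨haw, hno⟩ := hfail
  have hca : a ∈ perp T c := perp_symm ha hc.1
  have hcz : z ∈ perp T c := perp_symm hz hc.2
  have hcw : ¬ Commute c w := by
    intro h
    by_cases e : c = w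
    · exact haw (e ▸ hc.1.2.2)
    · exact e (hno c hc.1.1 hc.1.2.2 hc.1.2.1 h)
  let σ : Set G := both T a z ∩ perp T c
  have hσeq : σ = perp T c ∩ both T a z := Set.inter_comm _ _
  have hσcard : σ.ncard = 126 := by rw [hσeq]; exact hS.card_far c hc.1.1 a hca z hcz haz
  have hdeg : ∀ m ∈ σ, (σ ∩ perp T m).ncard = 45 := by
    intro m hm
    have h := hS.card_far_pair c hc.1.1 m hm.2 a ⟨hca, perp_symm ha hm.1.1⟩ z ⟨hcz, perp_symm hz hm.1.2⟩ haz
    rw [← h]
    congr 1
    ext u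
    simp only [σ, both, Set.mem_inter_iff]
    tauto
  let Ω : Set G := {u | u ∈ perp T z ∧ ¬ Commute c u}
  have hΩ : Ω.ncard = 2816 := by
    have h := card_split hS (z := z) (c := c) hc.2 (subset_refl _) hc.2 (hS.card_perp z hz)
      (hS.card_pair z hz c hc.2)
    have : Ω.ncard + 1 + 693 = 3510 := h
    omega
  have hone : ∀ m ∈ σ, ({u | u ∈ both T z m ∧ ¬ Commute c u} : Set G).ncard = 512 := by
    intro m hm
    have h := card_split hS hc.2 (S := both T z m) Set.inter_subset_left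
      ⟨hc.2, perp_symm hc.1.1 hm.2⟩ (hS.card_pair z hz m hm.1.2)
      (hS.card_triangle z hz m hm.1.2 c ⟨hc.2, perp_symm hc.1.1 hm.2⟩)
    omega
  have htwo : ∀ m ∈ σ, ∀ q ∈ σ ∩ perp T m,
      ({u | u ∈ both T z m ∩ perp T q ∧ ¬ Commute c u} : Set G).ncard = 128 := by
    intro m hm q hq
    have hcm : c ∈ both T z m := ⟨hc.2, perp_symm hc.1.1 hm.2⟩
    have hqm : q ∈ both T z m := ⟨hq.1.1.2, hq.2⟩
    have hcq : c ∈ both T z m ∩ perp T q := ⟨hcm, perp_symm hc.1.1 hq.1.2⟩
    have h := card_split hS hc.2 (fun u hu => hu.1.1) hcq (hS.card_triangle z hz m hm.1.2 q hqm)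
      (k := 51) (by
        rw [← hS.card_four z hz m hm.1.2 q hqm c hcq, Set.inter_assoc]
        rfl)
    omega
  have hnon : ∀ m ∈ σ, ∀ q ∈ σ, ¬ Commute m q →
      ({u | u ∈ perp T z ∩ both T m q ∧ ¬ Commute c u} : Set G).ncard = 80 := by
    intro m hm q hq hmq
    have hcz' : c ∈ perp T z ∩ both T m q := ⟨hc.2, perp_symm hc.1.1 hm.2, perp_symm hc.1.1 hq.2⟩
    have h := card_split hS hc.2 Set.inter_subset_left hcz' (hS.card_far z hz m hm.1.2 q hq.1.2 hmq)
      (k := 45) (by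
        rw [← hS.card_far_pair z hz c hc.2 m ⟨hm.1.2, hm.2⟩ q ⟨hq.1.2, hq.2⟩ hmq]
        congr 1
        ext u
        simp only [both, Set.mem_inter_iff]
        tauto)
    omega
  -- the failing vertices
  let Z : Set G := {u | u ∈ Ω ∧ ∀ q ∈ σ, u ∉ perp T q}
  let sF : Finset G := σ.toFinite.toFinset
  let oF : Finset G := Ω.toFinite.toFinset
  let zF : Finset G := Z.toFinite.toFinset
  have hsF : ∀ x, x ∈ sF ↔ x ∈ σ := fun x => Set.Finite.mem_toFinset _
  have hoF : ∀ x, x ∈ oF ↔ x ∈ Ω := fun x => Set.Finite.mem_toFinset _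
  have hzF : ∀ x, x ∈ zF ↔ x ∈ Z := fun x => Set.Finite.mem_toFinset _
  have hsc : sF.card = 126 := by rw [← hσcard, Set.ncard_eq_toFinset_card]
  have hfilter : ∀ (p : G → Prop) [DecidablePred p] (S : Set G),
      (∀ u, u ∈ S ↔ u ∈ Ω ∧ p u) → (oF.filter p).card = S.ncard := by
    intro p _ S hSeq
    rw [← Set.ncard_coe_finset]
    congr 1
    ext u
    rw [Finset.coe_filter, Set.mem_ofPred_eq, hoF, hSeq]
  let χ : G → G → ℕ := fun u m => if u ∈ perp T m then 1 else 0
  let f : G → ℕ := fun u => ∑ m ∈ sF, χ u m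
  have hsum : ∑ u ∈ oF, f u = 64512 := by
    show ∑ u ∈ oF, ∑ m ∈ sF, χ u m = 64512
    rw [Finset.sum_comm, Finset.sum_congr rfl (fun m hm => show ∑ u ∈ oF, χ u m = 512 from ?_),
      Finset.sum_const, hsc, smul_eq_mul]
    rw [Finset.sum_boole, Nat.cast_id, hfilter _ {u | u ∈ both T z m ∧ ¬ Commute c u}
      (fun u => ⟨fun h => ⟨⟨h.1.1, h.2⟩, h.1.2⟩, fun h => ⟨⟨h.1.1, h.2⟩, h.1.2⟩⟩)]
    exact hone m ((hsF m).1 hm)
  have hsq : ∑ u ∈ oF, f u ^ 2 = 1596672 := by
    have e : ∀ u, f u ^ 2 = ∑ m ∈ sF, ∑ q ∈ sF, χ u m * χ u q := fun u => by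
      rw [pow_two]; exact Finset.sum_mul_sum _ _ _ _
    rw [Finset.sum_congr rfl fun u _ => e u, Finset.sum_comm,
      Finset.sum_congr rfl (fun m hm => show ∑ u ∈ oF, ∑ q ∈ sF, χ u m * χ u q = 512 + 45 * 128 + 80 * 80 from ?_),
      Finset.sum_const, hsc, smul_eq_mul]
    have hm' := (hsF m).1 hm
    rw [Finset.sum_comm]
    have hval : ∀ q ∈ sF, ∑ u ∈ oF, χ u m * χ u q =
        if q = m then 512 else if q ∈ perp T m then 128 else 80 := by
      intro q hq
      have hq' := (hsF q).1 hq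
      have hprod : ∀ u, χ u m * χ u q = if u ∈ perp T m ∧ u ∈ perp T q then 1 else 0 := fun u => by
        by_cases h1 : u ∈ perp T m <;> by_cases h2 : u ∈ perp T q <;> simp [χ, h1, h2]
      rw [Finset.sum_congr rfl fun u _ => hprod u, Finset.sum_boole, Nat.cast_id]
      by_cases e1 : q = m
      · rw [if_pos e1, hfilter _ {u | u ∈ both T z m ∧ ¬ Commute c u} (fun u => ?_)]
        · exact hone m hm'
        · subst e1
          exact ⟨fun h => ⟨⟨h.1.1, h.2⟩, h.1.2, h.1.2⟩, fun h => ⟨⟨h.1.1, h.2.1⟩, h.1.2⟩⟩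
      rw [if_neg e1]
      by_cases e2 : q ∈ perp T m
      · rw [if_pos e2, hfilter _ {u | u ∈ both T z m ∩ perp T q ∧ ¬ Commute c u} (fun u =>
          ⟨fun h => ⟨⟨h.1.1.1, h.2⟩, h.1.1.2, h.1.2⟩, fun h => ⟨⟨⟨h.1.1, h.2.1⟩, h.2.2⟩, h.1.2⟩⟩)]
        exact htwo m hm' q ⟨hq', e2⟩
      · rw [if_neg e2, hfilter _ {u | u ∈ perp T z ∩ both T m q ∧ ¬ Commute c u} (fun u =>
          ⟨fun h => ⟨⟨h.1.1, h.2⟩, h.1.2.1, h.1.2.2⟩, fun h => ⟨⟨h.1.1, h.2.1, h.2.2⟩, h.1.2⟩⟩)]
        exact hnon m hm' q hq' fun k => e2 ⟨hq'.1.1.1, e1, k⟩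
    rw [Finset.sum_congr rfl hval, Finset.sum_ite, Finset.sum_ite]
    simp only [Finset.sum_const, smul_eq_mul]
    have h1 : (sF.filter fun q => q = m).card = 1 := by
      rw [show (sF.filter fun q => q = m) = {m} from ?_, Finset.card_singleton]
      ext q
      simp only [Finset.mem_filter, Finset.mem_singleton]
      exact ⟨fun h => h.2, fun h => ⟨h ▸ hm, h⟩⟩
    have h2 : ((sF.filter fun q => ¬ q = m).filter fun q => q ∈ perp T m).card = 45 := by
      rw [← hdeg m hm', ← Set.ncard_coe_finset]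
      congr 1
      ext u
      simp only [Finset.coe_filter, Set.mem_ofPred_eq, Finset.mem_filter, hsF, Set.mem_inter_iff]
      exact ⟨fun h => ⟨h.1.1, h.2⟩, fun h => ⟨⟨h.1, h.2.2.1⟩, h.2⟩⟩
    have h3 := Finset.card_filter_add_card_filter_not (s := sF.filter fun q => ¬ q = m)
      (fun q => q ∈ perp T m)
    have h4 := Finset.card_filter_add_card_filter_not (s := sF) (fun q => q = m)
    omega
  have hzero : ∀ u ∈ zF, f u = 0 := by
    intro u hu
    refine Finset.sum_eq_zero fun m hm => ?_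
    exact if_neg (((hzF u).1 hu).2 m ((hsF m).1 hm))
  have hsubF : zF ⊆ oF := fun u hu => (hoF u).2 ((hzF u).1 hu).1
  have hrest : ∑ u ∈ oF \ zF, f u = 64512 := by
    have := Finset.sum_sdiff (f := f) hsubF
    rw [Finset.sum_eq_zero hzero, add_zero, hsum] at this
    exact this
  have hrest2 : ∑ u ∈ oF \ zF, f u ^ 2 ≤ 1596672 :=
    hsq ▸ Finset.sum_le_sum_of_subset Finset.sdiff_subset
  have hbound : Z.ncard ≤ 209 := by
    have hcs := sq_sum_le_card_mul_sum_sq (s := oF \ zF) (f := f)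
    have hoc : oF.card = 2816 := by rw [← hΩ, Set.ncard_eq_toFinset_card]
    have hzc : zF.card = Z.ncard := by rw [Set.ncard_eq_toFinset_card]
    have hle := Finset.card_le_card hsubF
    rw [Finset.card_sdiff_of_subset hsubF, hrest, hoc, hzc] at hcs
    have := hcs.trans (Nat.mul_le_mul_left _ hrest2)
    norm_num at this
    omega
  -- conjugates of `w` that fail
  have h3 := transpositionSet_perp hS hz
  have hnotσ : ∀ m ∈ σ, ¬ Commute m w := by
    intro m hm h
    by_cases e : m = w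
    · exact haw (e ▸ hm.1.1.2.2)
    · exact e (hno m hm.1.1.1 hm.1.1.2.2 hm.1.1.2.1 h)
  have hwZ : w ∈ Z := ⟨⟨hw, hcw⟩, fun q hq k => hnotσ q hq k.2.2⟩
  have hmove : ∀ g u : G, Commute g a → Commute g c → Commute g z → u ∈ Z → g * u * g⁻¹ ∈ Z := by
    intro g u h1 h2 h3 hu
    have e : ∀ {x : G}, Commute g x → g * x * g⁻¹ = x := fun h => by rw [h.eq, mul_inv_cancel_right]
    refine ⟨⟨e h3 ▸ perp_conj hS g hu.1.1, fun k => hu.1.2 ?_⟩, fun q hq k => hu.2 (g⁻¹ * q * g) ?_ ?_⟩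
    · have := k.map (MulAut.conj g⁻¹)
      simpa [MulAut.conj_apply, (h2.inv_left).eq, mul_assoc] using this
    · have e' : ∀ {x : G}, Commute g x → g⁻¹ * x * g⁻¹⁻¹ = x := fun h => by
        rw [h.inv_left.eq, mul_inv_cancel_right]
      have := both_conj hS g⁻¹ hq.1
      have h' := perp_conj hS g⁻¹ hq.2
      rw [e' h1, e' h3, inv_inv] at this
      rw [e' h2, inv_inv] at h'
      exact ⟨this, h'⟩
    · have := perp_conj hS g⁻¹ k
      simpa [mul_assoc] using this
  have hm_z : ∀ m ∈ σ, m ∈ perp T z := fun m hm => hm.1.2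
  have hc_z : c ∈ perp T z := hc.2
  let A : Set G := (fun m => m * w * m) '' σ
  let B : Set G := (fun m => c * (m * w * m) * c) '' σ
  have hA : A ⊆ Z := by
    rintro _ ⟨m, hm, rfl⟩
    have := hmove m w (hm.1.1.2.2.symm) hm.2.2.2.symm hm.1.2.2.2.symm hwZ
    rwa [inv_self hS hm.1.1.1] at this
  have hB : B ⊆ Z := by
    rintro _ ⟨m, hm, rfl⟩
    have := hmove c _ hc.1.2.2.symm (Commute.refl c) hc.2.2.2.symm (hA ⟨m, hm, rfl⟩)
    rwa [inv_self hS hc.1.1] at this
  have hinjA : Set.InjOn (fun m => m * w * m) σ := by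
    intro m hm m' hm' h
    have h' : m * w * m = m' * w * m' := h
    rw [braid h3 (hm_z m hm) hw (hnotσ m hm), braid h3 (hm_z m' hm') hw (hnotσ m' hm')] at h'
    exact mul_left_cancel (mul_right_cancel h')
  have hinjB : Set.InjOn (fun m => c * (m * w * m) * c) σ := fun m hm m' hm' h =>
    hinjA hm hm' (mul_left_cancel (mul_right_cancel h))
  have hdisj : Disjoint A B := by
    rw [Set.disjoint_left]
    rintro _ ⟨m, hm, rfl⟩ ⟨m', hm', h⟩
    refine not_commute_third_right h3 (hm_z m hm) hw (hnotσ m hm) ?_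
    show Commute w (m * w * m)
    rw [← show c * (m' * w * m') * c = m * w * m from h]
    obtain ⟨φ, -, k1, k2, k3⟩ := CfsgLib.Fischer.SymFour.exists_injective_of_string h3 hc_z hw (hm_z m' hm')
      hm'.2.2.1.symm hm'.2.2.2 hcw (fun k => hnotσ m' hm' k.symm)
    have key : Commute (Equiv.swap (1 : Fin 4) 2)
        (Equiv.swap 0 1 * (Equiv.swap 2 3 * Equiv.swap 1 2 * Equiv.swap 2 3) * Equiv.swap 0 1) := by
      show (_ : Equiv.Perm (Fin 4)) = _
      decide
    have := key.map φ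
    rwa [map_mul, map_mul, map_mul, map_mul, k1, k2, k3] at this
  have hcardA : A.ncard = 126 := by rw [Set.ncard_image_of_injOn hinjA, hσcard]
  have hcardB : B.ncard = 126 := by rw [Set.ncard_image_of_injOn hinjB, hσcard]
  have : 252 ≤ Z.ncard := by
    have h := Set.ncard_le_ncard (Set.union_subset hA hB)
    rw [Set.ncard_union_eq hdisj, hcardA, hcardB] at h
    exact h
  omega

end CfsgLib.Fischer.M23Recog
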