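import Cfsg.Agent.Lib.Fischer.M23Recog.Fi22Type.Reflections
import Cfsg.Agent.Lib.SporRecognition.Cert.Fi22Conf.Base
import Cfsg.Agent.Lib.SporadicB.Fi22.Basic
import Cfsg.Prelude.Def_FischerSpaces

/-!
The presented group Fi22 with the class of its generator `a` is a primitive 3-transposition group of type M(22).
-/

set_option autoImplicit false
set_option maxRecDepth 4000
set_option linter.constructorNameAsVariable false

namespace CfsgLib.Fischer.M23Recog.Fi22Type

open CfsgLib.SporRecognition.CosetCert CfsgLib.SporRecognition.FischerAut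
open CfsgLib.SporRecognition.Cert
open scoped commutatorElement
open Cfsg.Spor.Fi22 (Gen)

/-- The class of transpositions of the presented Fi22. -/
abbrev cls : Set Cfsg.Spor.Fi22 := conjugatesOf (PresentedGroup.of Gen.a)

set_option quotPrecheck false in
local notation "rels22" => Cfsg.Spor.coxRelators Cfsg.Spor.Fi22.edges ∪ {r | r ∈ Cfsg.Spor.Fi22.extra}

theorem mem_cls {u : Cfsg.Spor.Fi22} : u ∈ cls ↔ ∃ v, Fi22Conf.τ v = u := by
  unfold cls
  rw [← Fi22Conf.tau_a, conjugatesOf, Set.mem_ofPred_eq, isConj_iff]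
  constructor
  · rintro ⟨g, rfl⟩
    exact ⟨_, (Fi22Conf.base.heq g Fi22Conf.pt0).symm⟩
  · rintro ⟨v, rfl⟩
    exact ⟨gTo Fi22U.certified v, (Fi22Conf.base.heq _ _).trans (congrArg _ (gTo_spec _ v))⟩

theorem moved_iff (u v : Fin 3510) : Fi22Conf.σ (Fi22Conf.τ u) v = v ↔ Commute (Fi22Conf.τ u) (Fi22Conf.τ v) := by
  rw [commute_iff_eq, ← mul_inv_eq_iff_eq_mul, Fi22Conf.base.heq]
  exact ⟨fun h => by rw [h], fun h => Fi22Conf.tau_inj h⟩

theorem commute_tau {p : Fin 3510} {x : Gen} (hp : Fi22Conf.τ p = PresentedGroup.of x) (v : Fin 3510) :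
    Commute (Fi22Conf.τ p) (Fi22Conf.τ v) ↔ Fi22U.tabs x true v = v := by
  rw [← moved_iff, Fin.ext_iff, hp,
    show PresentedGroup.of (rels := rels22) x = evalW PresentedGroup.of [(x, true)] by simp [evalW_eq_prod],
    hom_word]
  rfl

/-! ### The common members -/

theorem pt_ok : allBelow 7 126 (fun i => Nat.blt (pt i) 3510 && Nat.beq (Fi22U.T1 (pt i)) (pt i) &&
    Nat.beq (Fi22U.T2 (pt i)) (pt i) && Nat.beq (ix (pt i)) i && !Nat.beq (pt i) 0 && !Nat.beq (pt i) 2) = true := by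
  decide +kernel

theorem ix_ok : allBelow 12 3510 (fun u => !(Nat.beq (Fi22U.T1 u) u && Nat.beq (Fi22U.T2 u) u) ||
    (Nat.blt (ix u) 126 && Nat.beq (pt (ix u)) u)) = true := by decide +kernel

theorem pt_spec (i : Fin 126) : pt i < 3510 ∧ Fi22U.T1 (pt i) = pt i ∧ Fi22U.T2 (pt i) = pt i ∧ ix (pt i) = i ∧
    pt i ≠ 0 ∧ pt i ≠ 2 := by
  have h := allBelow_spec pt_ok i i.2
  simp only [Bool.and_eq_true, Nat.blt_eq, Nat.beq_eq, Bool.not_eq_true'] at h
  obtain ⟨⟨⟨⟨⟨h1, h2⟩, h3⟩, h4⟩, h5⟩, h6⟩ := h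
  exact ⟨h1, h2, h3, h4, fun k => by simp [k] at h5, fun k => by simp [k] at h6⟩

/-- The point of an index. -/
noncomputable def ptFin (i : Fin 126) : Fin 3510 := ⟨pt i, (pt_spec i).1⟩

/-- The common members. -/
noncomputable def mem126 (i : Fin 126) : Cfsg.Spor.Fi22 := Fi22Conf.τ (ptFin i)

theorem range_mem126 : Set.range mem126 =
    ({y | y ∈ cls ∧ y ≠ PresentedGroup.of Gen.a ∧ Commute (PresentedGroup.of Gen.a) y} ∩
      {y | y ∈ cls ∧ y ≠ PresentedGroup.of Gen.b ∧ Commute (PresentedGroup.of Gen.b) y} : Set Cfsg.Spor.Fi22) := by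
  ext y
  rw [← Fi22Conf.tau_a, ← Fi22Conf.tau_b]
  constructor
  · rintro ⟨i, rfl⟩
    obtain ⟨-, h1, h2, -, h0, h2'⟩ := pt_spec i
    exact ⟨⟨mem_cls.2 ⟨_, rfl⟩, fun h => h0 (congrArg Fin.val (Fi22Conf.tau_inj h)),
        (commute_tau Fi22Conf.tau_a _).2 h1⟩,
      mem_cls.2 ⟨_, rfl⟩, fun h => h2' (congrArg Fin.val (Fi22Conf.tau_inj h)),
        (commute_tau Fi22Conf.tau_b _).2 h2⟩
  · rintro ⟨⟨hy, -, hca⟩, -, -, hcb⟩
    obtain ⟨v, rfl⟩ := mem_cls.1 hy
    have h1 : Fi22U.T1 v = v := (commute_tau Fi22Conf.tau_a v).1 hca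
    have h2 : Fi22U.T2 v = v := (commute_tau Fi22Conf.tau_b v).1 hcb
    have h := allBelow_spec ix_ok v v.2
    simp only [h1, h2, Nat.beq_refl, Bool.and_self, Bool.not_true, Bool.false_or, Bool.and_eq_true, Nat.blt_eq,
      Nat.beq_eq] at h
    exact ⟨⟨ix v, h.1⟩, congrArg Fi22Conf.τ (Fin.ext h.2)⟩

theorem mem126_inj : Function.Injective mem126 := by
  intro i j h
  have h' : pt i = pt j := congrArg Fin.val (Fi22Conf.tau_inj h)
  apply Fin.ext
  rw [← (pt_spec i).2.2.2.1, h', (pt_spec j).2.2.2.1]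

theorem move_ok : allBelow 3 7 (fun j => if h : j < 7 then
    Nat.beq (trace (wordTabs Fi22U.tabs (moveW ⟨j, h⟩)) 0) (pt (gen7 j)) else false) = true := by decide +kernel

theorem mem_ok : ∀ j : Fin 7,
    allBelow 7 126 (fun i => Nat.beq (trace (wordTabs Fi22U.tabs (memW j)) (pt i)) (pt (act7 j i))) = true := by
  decide +kernel

theorem evalW_reverse (w : List (Gen × Bool)) :
    evalW (PresentedGroup.of (rels := rels22)) (w.reverse.map fun x => (x.1, !x.2)) =
      (evalW PresentedGroup.of w)⁻¹ := by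
  simp only [evalW_eq_prod, List.prod_inv_reverse, List.map_reverse, List.map_map]
  congr 2
  refine List.map_congr_left fun x _ => ?_
  rcases x with ⟨a, _ | _⟩ <;> simp

theorem mem126_model : PermModel mem126 g7 K7 := by
  refine ⟨mem126_inj, fun j i => ?_⟩
  have hg : mem126 (g7 j) = evalW (PresentedGroup.of (rels := rels22)) (memW j) := by
    have h := allBelow_spec move_ok j j.2
    rw [dif_pos j.2] at h
    rw [memW, evalW_append, evalW_append, evalW_reverse]
    exact Fi22Conf.base.tau_word (moveW j) _ (Nat.eq_of_beq_eq_true h)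
  show mem126 (g7 j) * Fi22Conf.τ (ptFin i) * (mem126 (g7 j))⁻¹ = Fi22Conf.τ (ptFin (K7 j i))
  rw [Fi22Conf.base.heq]
  congr 1
  apply Fin.ext
  rw [hg, hom_word]
  exact Nat.eq_of_beq_eq_true (allBelow_spec (mem_ok j) i i.2)

theorem tree_ok : allBelow 7 126 (fun i => Nat.blt (via i) 7 && Nat.blt (src i) 126 &&
    ((Nat.beq (rk i) 0 && Nat.beq (gen7 0) i) ||
      (Nat.beq (act7 (via i) (src i)) i && Nat.blt (rk (src i)) (rk i)))) = true := by decide +kernel

theorem closure_seven {X : Type*} [Group X] {S : Fin 126 → X} (M : PermModel S g7 K7) :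
    Subgroup.closure (Set.range fun j => S (g7 j)) = Subgroup.closure (Set.range S) := by
  have hspec : ∀ i : Fin 126, (via i < 7 ∧ src i < 126) ∧
      ((rk i = 0 ∧ gen7 0 = i) ∨ (act7 (via i) (src i) = i ∧ rk (src i) < rk i)) := fun i => by
    simpa only [Bool.and_eq_true, Bool.or_eq_true, Nat.blt_eq, Nat.beq_eq] using allBelow_spec tree_ok i i.2
  refine M.closure_eq (fun i => ⟨via i, (hspec i).1.1⟩) (fun i => ⟨src i, (hspec i).1.2⟩) (fun i => rk i) fun i => ?_
  rcases (hspec i).2 with ⟨-, h⟩ | ⟨h, h'⟩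
  · exact Or.inl ⟨0, Fin.ext h⟩
  · exact Or.inr ⟨Fin.ext h, h'⟩

theorem pair_half : Cfsg.IsProjReflectionGroupModThree
    (↥(Subgroup.closure (Set.range mem126)) ⧸ Subgroup.center ↥(Subgroup.closure (Set.range mem126))) 6 1 1 := by
  refine ⟨form, form_nondegenerate, form_det, ?_⟩
  have hK := mem126_model.injective
  obtain ⟨e1⟩ := mem126_model.nonempty_quot hK (closure_seven mem126_model)
  obtain ⟨e2⟩ := rr_model.nonempty_quot hK (closure_seven rr_model)
  obtain ⟨e⟩ : Nonempty ((↥(Subgroup.closure (Set.range rr)) ⧸ Subgroup.center ↥(Subgroup.closure (Set.range rr))) ≃*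
      (↥(Cfsg.reflectionSubgroup (⇑form) 1) ⧸ Subgroup.center ↥(Cfsg.reflectionSubgroup (⇑form) 1))) :=
    closure_rr ▸ ⟨MulEquiv.refl _⟩
  exact ⟨(e1.trans e2.symm).trans e⟩

/-! ### The centralizer of a member -/

/-- A subgroup normalised by a double cover of a simple group and not central is everything. -/
theorem eq_top_of_double_cover {H K : Type*} [Group H] [Finite H] [Group K] [IsSimpleGroup K]
    (h : Cfsg.IsNonsplitDoubleCover H K) (hK : ∃ a b : K, a * b ≠ b * a) (N : Subgroup H) [N.Normal]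
    (hN : ¬ N ≤ Subgroup.center H) : N = ⊤ := by
  obtain ⟨hcard, ⟨e⟩, hns⟩ := h
  let f : H →* K := e.toMonoidHom.comp (QuotientGroup.mk' (Subgroup.center H))
  have hf : Function.Surjective f := e.surjective.comp (QuotientGroup.mk'_surjective _)
  have hker : f.ker = Subgroup.center H := by
    ext x
    simp [f, MonoidHom.mem_ker]
  have sup_top : ∀ M : Subgroup H, M.Normal → ¬ M ≤ Subgroup.center H → M ⊔ Subgroup.center H = ⊤ := by
    intro M hM hle
    rcases (hM.map f hf).eq_bot_or_eq_top with hb | ht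
    · exact absurd ((Subgroup.map_eq_bot_iff M).1 hb |>.trans hker.le) hle
    · rw [← hker, ← Subgroup.comap_map_eq, ht, Subgroup.comap_top]
  have hnc : ¬ commutator H ≤ Subgroup.center H := by
    intro hle
    obtain ⟨a, b, hab⟩ := hK
    obtain ⟨x, rfl⟩ := hf a
    obtain ⟨y, rfl⟩ := hf b
    apply hab
    have h1 : f ⁅x, y⁆ = 1 := by
      rw [← MonoidHom.mem_ker, hker]
      exact hle (Subgroup.commutator_mem_commutator (Subgroup.mem_top x) (Subgroup.mem_top y))
    rw [map_commutatorElement] at h1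
    exact commutatorElement_eq_one_iff_mul_comm.1 h1
  have htop : commutator H = ⊤ := by
    have hs := sup_top (commutator H) inferInstance hnc
    by_contra hne
    have hZ : Subgroup.center H ⊓ commutator H = ⊥ := by
      by_contra hb
      obtain ⟨z, hz, hz1⟩ := (Subgroup.bot_or_exists_ne_one _).resolve_left hb
      apply hne
      rw [← hs, eq_comm, sup_eq_left]
      intro y hy
      by_cases hy1 : y = 1
      · rw [hy1]; exact one_mem _
      have h2 := Nat.card_eq_two_iff' (α := ↥(Subgroup.center H)) 1 |>.1 hcard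
      obtain ⟨w, -, hw⟩ := h2
      have e1 : (⟨y, hy⟩ : ↥(Subgroup.center H)) = w := hw _ fun k => hy1 (congrArg Subtype.val k)
      have e2 : (⟨z, hz.1⟩ : ↥(Subgroup.center H)) = w := hw _ fun k => hz1 (congrArg Subtype.val k)
      rw [show y = z from congrArg Subtype.val (e1.trans e2.symm)]
      exact hz.2
    refine hns (commutator H) (Subgroup.isComplement'_of_disjoint_and_mul_eq_univ (disjoint_iff.2 hZ) ?_)
    rw [← Subgroup.normal_mul, sup_comm, hs, Subgroup.coe_top]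
  have hs := sup_top N inferInstance hN
  rw [eq_top_iff, ← htop, commutator_def, Subgroup.commutator_le]
  intro x _ y _
  have hx : x ∈ N ⊔ Subgroup.center H := hs ▸ Subgroup.mem_top x
  have hy : y ∈ N ⊔ Subgroup.center H := hs ▸ Subgroup.mem_top y
  rw [← SetLike.mem_coe, Subgroup.normal_mul] at hx hy
  obtain ⟨n, hn, z, hz, rfl⟩ := hx
  obtain ⟨n', hn', z', hz', rfl⟩ := hy
  have e1 : ⁅n * z, n' * z'⁆ = ⁅n, n'⁆ := by
    have hc := Subgroup.mem_center_iff.1 hz
    have hc' := Subgroup.mem_center_iff.1 hz'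
    calc ⁅n * z, n' * z'⁆ = n * (z * (n' * z') * z⁻¹) * n⁻¹ * (n' * z')⁻¹ := by rw [commutatorElement_def]; group
      _ = n * (n' * z') * n⁻¹ * (n' * z')⁻¹ := by rw [← hc (n' * z'), mul_inv_cancel_right]
      _ = n * n' * (z' * n⁻¹ * z'⁻¹) * n'⁻¹ := by group
      _ = n * n' * n⁻¹ * n'⁻¹ := by rw [← hc' n⁻¹, mul_inv_cancel_right]
      _ = _ := (commutatorElement_def n n').symm
  show ⁅n * z, n' * z'⁆ ∈ N
  rw [e1]
  exact N.mul_mem (N.mul_mem (N.mul_mem hn hn') (N.inv_mem hn)) (N.inv_mem hn')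

open CfsgLib.SporadicB.Fi22 (aa centralizer_aa ww_double_cover cases_rep conj_rep rep0_spec rep1_spec aa_comm aa_sq)

theorem aa_eq_of : (aa : Cfsg.Spor.Fi22) = PresentedGroup.of Gen.a := by
  rw [CfsgLib.SporadicB.Fi22.aa_eq, evalW_eq_prod]
  simp

theorem perp_closure :
    Subgroup.closure {y : Cfsg.Spor.Fi22 | y ∈ cls ∧ y ≠ PresentedGroup.of Gen.a ∧ Commute (PresentedGroup.of Gen.a) y} =
      Subgroup.centralizer {PresentedGroup.of Gen.a} := by
  obtain ⟨hsimp, hcardG⟩ : Cfsg.IsFi22 Cfsg.Spor.Fi22 := Cfsg.Agent.S1696.result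
  haveI : Finite Cfsg.Spor.Fi22 := Nat.finite_of_card_ne_zero (by rw [hcardG]; norm_num)
  set T := {y : Cfsg.Spor.Fi22 | y ∈ cls ∧ y ≠ PresentedGroup.of Gen.a ∧ Commute (PresentedGroup.of Gen.a) y}
  set C := Subgroup.centralizer ({PresentedGroup.of Gen.a} : Set Cfsg.Spor.Fi22)
  have hle : Subgroup.closure T ≤ C := (Subgroup.closure_le _).2 fun y hy =>
    Subgroup.mem_centralizer_singleton_iff.2 hy.2.2.symm.eq
  obtain ⟨F, _, _, hF, hcov⟩ : ∃ (F : Type) (_ : Field F) (_ : Fintype F), Fintype.card F = 4 ∧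
      Cfsg.IsNonsplitDoubleCover C (Cfsg.PSU 6 F 2) := by
    have h : C = CfsgLib.SporadicB.Fi22.WW := by rw [← centralizer_aa, aa_eq_of]
    rw [h]; exact ww_double_cover
  haveI : IsSimpleGroup (Cfsg.PSU 6 F 2) :=
    CfsgLib.ClassicalForms.isSimpleGroup_psu (q := 2) (by rw [hF]; norm_num) (by norm_num) (by norm_num)
  -- two members commuting with `a` and not with each other
  obtain ⟨u, hu, v, hv, huv⟩ : ∃ u ∈ T, ∃ v ∈ T, ¬ Commute u v := by
    have key : ∀ {p : Fin 3510} {x : Gen}, Fi22Conf.τ p = PresentedGroup.of x → Fi22U.tabs .a true p = p →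
        p ≠ Fi22Conf.pt0 → PresentedGroup.of x ∈ T := by
      intro p x hp h1 hne
      rw [← hp]
      exact ⟨mem_cls.2 ⟨p, rfl⟩, fun h => hne (Fi22Conf.tau_inj (h.trans Fi22Conf.tau_a.symm)),
        Fi22Conf.tau_a ▸ (commute_tau Fi22Conf.tau_a p).2 h1⟩
    refine ⟨_, key Fi22Conf.tau_c (by decide +kernel) (by decide), _,
      key Fi22Conf.tau_d (by decide +kernel) (by decide), ?_⟩
    rw [← Fi22Conf.tau_c, ← Fi22Conf.tau_d, commute_tau Fi22Conf.tau_c]
    decide +kernel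
  let N : Subgroup C := (Subgroup.closure T).subgroupOf C
  haveI : N.Normal := by
    refine Subgroup.normal_subgroupOf_iff_le_normalizer hle |>.2 fun g hg => ?_
    refine Subgroup.mem_normalizer_iff.2 fun x => ?_
    have hga : Commute g (PresentedGroup.of Gen.a) := Subgroup.mem_centralizer_singleton_iff.1 hg
    have hmap : ∀ k : Cfsg.Spor.Fi22, Commute k (PresentedGroup.of Gen.a) → ∀ y ∈ Subgroup.closure T,
        k * y * k⁻¹ ∈ Subgroup.closure T := by
      intro k hk y hy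
      induction hy using Subgroup.closure_induction with
      | mem y hy =>
        refine Subgroup.subset_closure ⟨?_, fun h => hy.2.1 ?_, ?_⟩
        · exact IsConj.trans hy.1 (isConj_iff.2 ⟨k, rfl⟩)
        · calc y = k⁻¹ * (k * y * k⁻¹) * k := by group
            _ = k⁻¹ * (PresentedGroup.of Gen.a * k) := by rw [h]; group
            _ = PresentedGroup.of Gen.a := by rw [← hk.eq]; group
        · exact (hk.symm.mul_right hy.2.2).mul_right hk.symm.inv_right
      | one => simp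
      | mul x y _ _ hx hy =>
        rw [show k * (x * y) * k⁻¹ = k * x * k⁻¹ * (k * y * k⁻¹) by group]; exact mul_mem hx hy
      | inv x _ hx =>
        rw [show k * x⁻¹ * k⁻¹ = (k * x * k⁻¹)⁻¹ by group]; exact inv_mem hx
    exact ⟨hmap g hga x, fun h => by simpa [mul_assoc] using hmap g⁻¹ hga.inv_left _ h⟩
  have hu' : (⟨u, hle (Subgroup.subset_closure hu)⟩ : C) ∈ N := Subgroup.subset_closure hu
  have hN : ¬ N ≤ Subgroup.center C := fun h => huv (congrArg Subtype.val
    (Subgroup.mem_center_iff.1 (h hu') ⟨v, hle (Subgroup.subset_closure hv)⟩)).symm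
  have hnab : ∃ a b : Cfsg.PSU 6 F 2, a * b ≠ b * a := by
    by_contra hab
    push Not at hab
    letI : CommGroup (Cfsg.PSU 6 F 2) := { (inferInstance : Group (Cfsg.PSU 6 F 2)) with mul_comm := hab }
    obtain ⟨h2, ⟨e⟩, -⟩ := hcov
    have hC : Nat.card C = 18393661440 := by
      rw [show C = CfsgLib.SporadicB.Fi22.WW by rw [← centralizer_aa, aa_eq_of]]
      exact CfsgLib.SporadicB.Fi22.card_WW
    have hP : Nat.card (Cfsg.PSU 6 F 2) = 9196830720 := by
      have h := (Subgroup.center C).card_mul_index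
      rw [h2, hC, Subgroup.index, Nat.card_congr e.toEquiv] at h
      omega
    haveI : Finite (Cfsg.PSU 6 F 2) := Nat.finite_of_card_ne_zero (by rw [hP]; norm_num)
    have hp := IsSimpleGroup.prime_card (α := Cfsg.PSU 6 F 2)
    rw [hP] at hp
    exact Nat.not_prime_mul (a := 2) (b := 4598415360) (by norm_num) (by norm_num) hp
  have htop := eq_top_of_double_cover hcov hnab N hN
  exact le_antisymm hle (Subgroup.subgroupOf_eq_top.1 htop)

/-! ### Primitivity -/

theorem commute_conj_iff {M : Type*} [Group M] (g u v : M) : Commute (g * u * g⁻¹) (g * v * g⁻¹) ↔ Commute u v :=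
  ⟨fun h => by simpa [mul_assoc] using h.map (MulAut.conj g⁻¹), fun h => h.map (MulAut.conj g)⟩

theorem commute_of_sq {x y : Cfsg.Spor.Fi22} (hx : x * x = 1) (hy : y * y = 1) (h : (x * y) ^ 2 = 1) : Commute x y := by
  have hx' : x⁻¹ = x := inv_eq_of_mul_eq_one_right hx
  have hy' : y⁻¹ = y := inv_eq_of_mul_eq_one_right hy
  show x * y = y * x
  rw [pow_two] at h
  rw [eq_inv_of_mul_eq_one_left h, mul_inv_rev, hx', hy']

/-- Members with the same relation to `a` are conjugate in its centralizer. -/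
theorem exists_move {x y : Cfsg.Spor.Fi22} (hx : x ∈ cls) (hy : y ∈ cls) (hxa : x ≠ PresentedGroup.of Gen.a)
    (hya : y ≠ PresentedGroup.of Gen.a)
    (h : Commute (PresentedGroup.of Gen.a) x ↔ Commute (PresentedGroup.of Gen.a) y) :
    ∃ g, Commute g (PresentedGroup.of Gen.a) ∧ g * x * g⁻¹ = y := by
  rw [← aa_eq_of] at hxa hya h ⊢
  have key : ∀ z ∈ cls, z ≠ aa → ∃ w ∈ CfsgLib.SporadicB.Fi22.WW,
      (z = w * (evalW PresentedGroup.of CfsgLib.SporadicB.Fi22.repW0 * aa *
          (evalW PresentedGroup.of CfsgLib.SporadicB.Fi22.repW0)⁻¹) * w⁻¹ ∧ ¬ Commute aa z) ∨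
      (z = w * (evalW PresentedGroup.of CfsgLib.SporadicB.Fi22.repW1 * aa *
          (evalW PresentedGroup.of CfsgLib.SporadicB.Fi22.repW1)⁻¹) * w⁻¹ ∧ Commute aa z) := by
    intro z hz hza
    obtain ⟨k, rfl⟩ : ∃ k, k * aa * k⁻¹ = z := by
      rw [aa_eq_of]; exact isConj_iff.1 hz
    rcases cases_rep k with hk | ⟨w, hw, w', hw', rfl | rfl⟩
    · exact absurd (by rw [aa_comm hk, mul_inv_cancel_right]) hza
    all_goals
      have e : ∀ r : Cfsg.Spor.Fi22, w * r * w' * aa * (w * r * w')⁻¹ = w * (r * aa * r⁻¹) * w⁻¹ := fun r => by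
        calc w * r * w' * aa * (w * r * w')⁻¹ = w * r * (w' * aa * w'⁻¹) * r⁻¹ * w⁻¹ := by group
          _ = w * r * (aa * w' * w'⁻¹) * r⁻¹ * w⁻¹ := by rw [aa_comm hw']
          _ = _ := by group
      have hca : ∀ r : Cfsg.Spor.Fi22, Commute aa (w * r * w⁻¹) ↔ Commute aa r := fun r => by
        have hwc : w * aa * w⁻¹ = aa := by rw [aa_comm hw, mul_inv_cancel_right]
        conv_lhs => rw [← hwc]
        exact commute_conj_iff w _ _
      refine ⟨w, hw, ?_⟩
    · refine Or.inl ⟨e _, ?_⟩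
      rw [e, hca]
      intro hc
      apply rep0_spec.2.2
      have h3 := rep0_spec.2.1
      set r := evalW PresentedGroup.of CfsgLib.SporadicB.Fi22.repW0 * aa *
        (evalW PresentedGroup.of CfsgLib.SporadicB.Fi22.repW0)⁻¹ with hr
      have hr2 : r * r = 1 := by
        rw [hr]; simp [mul_assoc, ← mul_assoc aa aa, aa_sq]
      rw [pow_succ, hc.mul_pow, pow_two, pow_two, aa_sq, hr2, one_mul, one_mul] at h3
      exact h3
    · refine Or.inr ⟨e _, ?_⟩
      rw [e, hca]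
      refine commute_of_sq aa_sq ?_ rep1_spec.2.1
      simp [mul_assoc, ← mul_assoc aa aa, aa_sq]
  obtain ⟨w, hw, hx'⟩ := key x hx hxa
  obtain ⟨v, hv, hy'⟩ := key y hy hya
  refine ⟨v * w⁻¹, (aa_comm (mul_mem hv (inv_mem hw))), ?_⟩
  rcases hx' with ⟨ex, hcx⟩ | ⟨ex, hcx⟩ <;> rcases hy' with ⟨ey, hcy⟩ | ⟨ey, hcy⟩
  · rw [ex, ey]; group
  · exact absurd (h.2 hcy) hcx
  · exact absurd (h.1 hcx) hcy
  · rw [ex, ey]; group

theorem conj_mem_cls (g : Cfsg.Spor.Fi22) {x : Cfsg.Spor.Fi22} (hx : x ∈ cls) : g * x * g⁻¹ ∈ cls :=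
  IsConj.trans hx (isConj_iff.2 ⟨g, rfl⟩)

theorem primitive : Cfsg.IsPrimitiveUnderConj cls := by
  have hne : ∀ {p q : Fin 3510} {x y : Gen}, Fi22Conf.τ p = PresentedGroup.of x → Fi22Conf.τ q = PresentedGroup.of y →
      p ≠ q → PresentedGroup.of (rels := rels22) x ≠ PresentedGroup.of y :=
    fun hp hq h k => h (Fi22Conf.tau_inj (hp.trans (k.trans hq.symm)))
  have hin : ∀ {p : Fin 3510} {x : Gen}, Fi22Conf.τ p = PresentedGroup.of x → PresentedGroup.of x ∈ cls :=
    fun hp => mem_cls.2 ⟨_, hp⟩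
  refine ⟨fun x hx y hy => isConj_iff.1 (hx.symm.trans hy),
    ⟨_, hin Fi22Conf.tau_a, _, hin Fi22Conf.tau_b, hne Fi22Conf.tau_a Fi22Conf.tau_b (by decide)⟩, ?_⟩
  intro B hB hblock
  by_contra hcon
  rw [not_or] at hcon
  obtain ⟨hns, hnf⟩ := hcon
  -- the relation of lying in one translate
  let R : Cfsg.Spor.Fi22 → Cfsg.Spor.Fi22 → Prop := fun x y => ∃ g, g * x * g⁻¹ ∈ B ∧ g * y * g⁻¹ ∈ B
  have hinv : ∀ g {x y}, R x y → R (g * x * g⁻¹) (g * y * g⁻¹) := by
    rintro g x y ⟨k, h1, h2⟩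
    refine ⟨k * g⁻¹, ?_, ?_⟩
    · convert h1 using 1; group
    · convert h2 using 1; group
  have hsymm : ∀ {x y}, R x y → R y x := fun ⟨g, h1, h2⟩ => ⟨g, h2, h1⟩
  have htrans : ∀ {x y z}, R x y → R y z → R x z := by
    rintro x y z ⟨g, hx, hy⟩ ⟨k, hy', hz⟩
    rcases hblock (g * k⁻¹) with h | h
    · refine ⟨g, hx, ?_⟩
      rw [← h]
      exact ⟨_, hz, by group⟩
    · refine absurd hy (Set.disjoint_left.1 h ⟨_, hy', by group⟩)
  obtain ⟨x, hxB, y, hyB, hxy⟩ : ∃ x ∈ B, ∃ y ∈ B, x ≠ y := by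
    simpa [Set.Subsingleton] using hns
  obtain ⟨g, hg⟩ := isConj_iff.1 ((hB hxB : IsConj _ x).symm)
  have hR0 : R (PresentedGroup.of Gen.a) (g * y * g⁻¹) :=
    hg ▸ hinv g ⟨1, by simpa using hxB, by simpa using hyB⟩
  have hy0 : g * y * g⁻¹ ∈ cls := conj_mem_cls g (hB hyB)
  have hy0a : g * y * g⁻¹ ≠ PresentedGroup.of Gen.a := fun h => hxy (by
    rw [← hg] at h
    exact (mul_left_cancel (mul_right_cancel h)).symm)
  -- every member in the orbit is related to `a`
  have horb : ∀ z ∈ cls, z ≠ PresentedGroup.of Gen.a →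
      (Commute (PresentedGroup.of Gen.a) z ↔ Commute (PresentedGroup.of Gen.a) (g * y * g⁻¹)) →
      R (PresentedGroup.of Gen.a) z := by
    intro z hz hza hiff
    obtain ⟨k, hk, rfl⟩ := exists_move hy0 hz hy0a hza hiff.symm
    have h := hinv k hR0
    rwa [hk.eq, mul_inv_cancel_right] at h
  have hpair : ∀ u ∈ cls, ∀ v ∈ cls, u ≠ v →
      (Commute u v ↔ Commute (PresentedGroup.of Gen.a) (g * y * g⁻¹)) → R u v := by
    intro u hu v hv huv hiff
    obtain ⟨k, rfl⟩ := isConj_iff.1 hu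
    have h1 : k⁻¹ * v * k⁻¹⁻¹ ∈ cls := conj_mem_cls _ hv
    have h2 : k⁻¹ * v * k⁻¹⁻¹ ≠ PresentedGroup.of Gen.a := fun h => huv (by rw [← h]; group)
    have h3 := hinv k (horb _ h1 h2 (Iff.trans ?_ hiff))
    · convert h3 using 1; group
    · rw [← commute_conj_iff k]
      simp [mul_assoc]
  have hall : ∀ z ∈ cls, R (PresentedGroup.of Gen.a) z := by
    intro z hz
    by_cases hza : z = PresentedGroup.of Gen.a
    · subst hza; exact htrans hR0 (hsymm hR0)
    by_cases hiff : Commute (PresentedGroup.of Gen.a) z ↔ Commute (PresentedGroup.of Gen.a) (g * y * g⁻¹)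
    · exact horb z hz hza hiff
    -- one member related both ways
    obtain ⟨w, hw, hwa, hwc, hRw⟩ : ∃ w ∈ cls, w ≠ PresentedGroup.of Gen.a ∧
        (Commute (PresentedGroup.of Gen.a) w ↔ ¬ Commute (PresentedGroup.of Gen.a) (g * y * g⁻¹)) ∧
        R (PresentedGroup.of Gen.a) w := by
      have cm : ∀ {p q : Fin 3510} {x y : Gen}, Fi22Conf.τ p = PresentedGroup.of x →
          Fi22Conf.τ q = PresentedGroup.of y →
          (Commute (PresentedGroup.of (rels := rels22) x) (PresentedGroup.of y) ↔ Fi22U.tabs x true q = q) :=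
        fun hp hq => by rw [← commute_tau hp, hp, hq]
      have hab : ¬ Commute (PresentedGroup.of (rels := rels22) Gen.a) (PresentedGroup.of .b) := by
        rw [cm Fi22Conf.tau_a Fi22Conf.tau_b]; decide +kernel
      have hbc : ¬ Commute (PresentedGroup.of (rels := rels22) Gen.b) (PresentedGroup.of .c) := by
        rw [cm Fi22Conf.tau_b Fi22Conf.tau_c]; decide +kernel
      have hac : Commute (PresentedGroup.of (rels := rels22) Gen.a) (PresentedGroup.of .c) := by
        rw [cm Fi22Conf.tau_a Fi22Conf.tau_c]; decide +kernel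
      have hae : Commute (PresentedGroup.of (rels := rels22) Gen.a) (PresentedGroup.of .e) := by
        rw [cm Fi22Conf.tau_a Fi22Conf.tau_e]; decide +kernel
      have heb : Commute (PresentedGroup.of (rels := rels22) Gen.e) (PresentedGroup.of .b) := by
        rw [cm Fi22Conf.tau_e Fi22Conf.tau_b]; decide +kernel
      by_cases hc : Commute (PresentedGroup.of Gen.a) (g * y * g⁻¹)
      · refine ⟨_, hin Fi22Conf.tau_b, hne Fi22Conf.tau_b Fi22Conf.tau_a (by decide),
          iff_of_false hab (fun h => h hc), htrans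
            (hpair _ (hin Fi22Conf.tau_a) _ (hin Fi22Conf.tau_e) (hne Fi22Conf.tau_a Fi22Conf.tau_e (by decide))
              (iff_of_true hae hc))
            (hpair _ (hin Fi22Conf.tau_e) _ (hin Fi22Conf.tau_b) (hne Fi22Conf.tau_e Fi22Conf.tau_b (by decide))
              (iff_of_true heb hc))⟩
      · refine ⟨_, hin Fi22Conf.tau_c, hne Fi22Conf.tau_c Fi22Conf.tau_a (by decide),
          iff_of_true hac hc, htrans
            (hpair _ (hin Fi22Conf.tau_a) _ (hin Fi22Conf.tau_b) (hne Fi22Conf.tau_a Fi22Conf.tau_b (by decide))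
              (iff_of_false hab hc))
            (hpair _ (hin Fi22Conf.tau_b) _ (hin Fi22Conf.tau_c) (hne Fi22Conf.tau_b Fi22Conf.tau_c (by decide))
              (iff_of_false hbc hc))⟩
    obtain ⟨k, hk, rfl⟩ := exists_move hw hz hwa hza
      (hwc.trans ⟨fun hn => by_contra fun hzc => hiff (iff_of_false hzc hn), fun hzc hn => hiff (iff_of_true hzc hn)⟩)
    have h := hinv k hRw
    rwa [hk.eq, mul_inv_cancel_right] at h
  apply hnf
  refine Set.Subset.antisymm hB fun z hz => ?_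
  have h0 := hinv g⁻¹ (hall (g * z * g⁻¹) (conj_mem_cls g hz))
  rw [show g⁻¹ * (g * z * g⁻¹) * g⁻¹⁻¹ = z by group,
    show g⁻¹ * PresentedGroup.of Gen.a * g⁻¹⁻¹ = x by rw [← hg]; group] at h0
  obtain ⟨k, hkx, hkz⟩ := h0
  rcases hblock k with h | h
  · rw [← h] at hkz
    obtain ⟨z', hz', e⟩ := hkz
    exact mul_left_cancel (mul_right_cancel e) ▸ hz'
  · exact absurd hkx (Set.disjoint_left.1 h ⟨x, hxB, rfl⟩)

/-! ### The type -/

theorem nonempty_quot_congr {M : Type*} [Group M] {H K : Subgroup M} (h : H = K) :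
    Nonempty ((↥H ⧸ Subgroup.center ↥H) ≃* (↥K ⧸ Subgroup.center ↥K)) := by
  subst h; exact ⟨MulEquiv.refl _⟩


theorem type22 : Cfsg.IsThreeTranspositionClass cls ∧ Cfsg.IsPrimitiveUnderConj cls ∧
    Cfsg.IsOfTypeM22 Cfsg.Spor.Fi22 cls := by
  obtain ⟨hsimp, hcardG⟩ : Cfsg.IsFi22 Cfsg.Spor.Fi22 := Cfsg.Agent.S1696.result
  haveI : Finite Cfsg.Spor.Fi22 := Nat.finite_of_card_ne_zero (by rw [hcardG]; norm_num)
  refine ⟨?_, primitive, ?_⟩
  · have h := CfsgLib.SporadicB.Fi22.threeTransposition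
    rw [aa_eq_of] at h
    exact h
  refine ⟨CfsgLib.SporadicB.Fi22.center_eq_bot_of_simple hsimp (by rw [hcardG]; norm_num) (by rw [hcardG]; norm_num),
    _, mem_cls.2 ⟨_, Fi22Conf.tau_a⟩, _, mem_cls.2 ⟨_, Fi22Conf.tau_b⟩, ?_, ?_, 1, one_ne_zero, ?_⟩
  · rw [← Fi22Conf.tau_a, ← Fi22Conf.tau_b, commute_tau Fi22Conf.tau_a]; decide +kernel
  · obtain ⟨F, _, _, hF, -, ⟨e⟩, -⟩ := ww_double_cover
    have h : Subgroup.centralizer ({PresentedGroup.of Gen.a} : Set Cfsg.Spor.Fi22) = CfsgLib.SporadicB.Fi22.WW := by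
      rw [← centralizer_aa, aa_eq_of]
    obtain ⟨e'⟩ := nonempty_quot_congr (perp_closure.trans h)
    exact ⟨F, _, _, hF, ⟨e'.trans e⟩⟩
  · obtain ⟨Q, h1, h2, ⟨e⟩⟩ := pair_half
    obtain ⟨e'⟩ := nonempty_quot_congr (congrArg Subgroup.closure range_mem126).symm
    exact ⟨Q, h1, h2, ⟨e'.trans e⟩⟩

end CfsgLib.Fischer.M23Recog.Fi22Type
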