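import Cfsg.Agent.Lib.Fischer.PairThree.Common
import Cfsg.Agent.Lib.Fischer.InvolutionClassesMTwentyTwo
import Cfsg.Agent.Lib.Fischer.DoubleM22.Base
import Cfsg.Agent.Lib.Fischer.U6Plane.SylowClosure

/-!
Groups of type M(22): 51 members commute with four given commuting ones at the third level, and the members of
a Sylow 2-subgroup generate its Thompson subgroup with no further hypothesis, since a member is itself an
involution with quasisimple centralizer of the shape needed.
-/

set_option autoImplicit false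
set_option linter.unusedSectionVars false

namespace CfsgLib.Fischer.M23Recog

open CfsgLib.Fischer CfsgLib.Fischer.TypeTwentyTwo

variable {Q : Type*} [Group Q] [Finite Q] {D : Set Q}
variable (hD : Cfsg.IsThreeTranspositionGroup D) (hprim : Cfsg.IsPrimitiveUnderConj D) (ht : Cfsg.IsOfTypeM22 Q D)

include hD hprim ht

theorem thompsonGenerated : DoubleM22.ThompsonGenerated D := by
  intro T
  obtain ⟨e, he, -⟩ := id hprim.2.1
  have hc := centralizer_eq_closure hD hprim ht he
  obtain ⟨F, iF, iF', hF, ⟨φ⟩⟩ := exists_equiv_of_type22 hD hprim ht he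
  have hz := TypeTwentyTwo.center_eq hD hprim ht he
  have hq := TypeTwentyTwo.isQuasisimple hD hprim ht he
  haveI hn : ((Subgroup.zpowers e).subgroupOf (Subgroup.centralizer ({e} : Set Q))).Normal :=
    ⟨fun x hx g => by
      rw [Subgroup.mem_subgroupOf] at hx ⊢
      obtain ⟨k, hk⟩ := Subgroup.mem_zpowers_iff.1 hx
      refine Subgroup.mem_zpowers_iff.2 ⟨k, ?_⟩
      have hge : Commute (g : Q) e := Subgroup.mem_centralizer_singleton_iff.1 g.2
      show e ^ k = (g : Q) * (x : Q) * (g : Q)⁻¹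
      rw [← hk, (hge.zpow_right k).eq, mul_inv_cancel_right]⟩
  have hnwc : ∃ g : Q, g * e * g⁻¹ ∈ Subgroup.centralizer ({e} : Set Q) ∧ g * e * g⁻¹ ≠ e := by
    obtain ⟨f, hf⟩ := TypeTwentyTwo.perp_nonempty hD hprim ht he
    obtain ⟨g, rfl⟩ := hprim.1 e he f hf.1
    exact ⟨g, Subgroup.mem_centralizer_singleton_iff.2 hf.2.2.symm.eq, hf.2.1⟩
  revert hn hnwc
  rw [hc]
  intro hn hnwc
  have key := U6Plane.closure_eq_thompson (d := e) (F := F) hD hprim ht (hD.1.1 e he)
  revert key
  rw [hc]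
  intro key
  exact key hq hF ((QuotientGroup.quotientMulEquivOfEq hz.symm).trans φ) hnwc T

/-- The members commuting with three pairwise commuting members. -/
theorem ncard_four {e f g : Q} (he : e ∈ D) (hf : f ∈ perp D e) (hg : g ∈ perp D e ∩ perp D f) :
    (perp D e ∩ perp D f ∩ perp D g).ncard = 51 := by
  classical
  haveI : Fintype Q := Fintype.ofFinite Q
  obtain ⟨L, hLdef⟩ : ∃ L, (perp D e ∩ perp D f ∩ perp D g).ncard = L := ⟨_, rfl⟩
  rw [hLdef]
  let P : Set Q := perp D e ∩ perp D f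
  let U : Set Q := {u | u ∈ perp D e ∧ ¬ Commute f u}
  have hconst : ∀ g' ∈ P, (P ∩ perp D g').ncard = L := by
    intro g' hg'
    obtain ⟨h, hh⟩ := TypeTwentyTwo.trans_le_three hD hprim ht (le_refl 3) [e, f, g] [e, f, g']
      (by simp [hf.2.1.symm, hg.1.2.1.symm, hg.2.2.1.symm]) (by simp [hf.2.1.symm, hg'.1.2.1.symm, hg'.2.2.1.symm])
      rfl rfl (by simp [he, hf.1, hg.1.1]) (by simp [he, hf.1, hg'.1.1])
      (by simp [hf.2.2, hf.2.2.symm, hg.1.2.2, hg.1.2.2.symm, hg.2.2.2, hg.2.2.2.symm])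
      (by simp [hf.2.2, hf.2.2.symm, hg'.1.2.2, hg'.1.2.2.symm, hg'.2.2.2, hg'.2.2.2.symm])
    simp only [List.map_cons, List.map_nil, List.cons.injEq, and_true] at hh
    obtain ⟨h1, h2, hh3⟩ := hh
    have him : ∀ a : Q, (MulAut.conj h) '' perp D a = perp D (MulAut.conj h a) := by
      intro a
      ext x
      constructor
      · rintro ⟨y, hy, rfl⟩
        exact ⟨hD.2.1 h y hy.1, fun k => hy.2.1 ((MulAut.conj h).injective k), hy.2.2.map (MulAut.conj h)⟩
      · intro hx
        refine ⟨h⁻¹ * x * h, ⟨by simpa using hD.2.1 h⁻¹ x hx.1, fun k => hx.2.1 ?_, ?_⟩, by simp [mul_assoc]⟩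
        · rw [← k]; simp [mul_assoc]
        · have := hx.2.2.map (MulAut.conj h⁻¹)
          simpa [mul_assoc] using this
    rw [← hLdef, ← Set.ncard_image_of_injective (perp D e ∩ perp D f ∩ perp D g) (MulAut.conj h).injective,
      Set.image_inter (MulAut.conj h).injective, Set.image_inter (MulAut.conj h).injective, him, him, him, h1, h2, hh3]
  have hU : U.ncard = 512 := by
    have hdisj : Disjoint (U ∪ {f}) P := by
      rw [Set.disjoint_left]
      rintro u (⟨-, hu⟩ | rfl) hu'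
      exacts [hu hu'.2.2.2, hu'.2.2.1 rfl]
    have hunion : perp D e = (U ∪ {f}) ∪ P := by
      ext u
      refine ⟨fun hu => ?_, ?_⟩
      · by_cases hcu : Commute f u
        · by_cases huf : u = f
          · exact Or.inl (Or.inr huf)
          · exact Or.inr ⟨hu, hu.1, huf, hcu⟩
        · exact Or.inl (Or.inl ⟨hu, hcu⟩)
      · rintro ((⟨hu, -⟩ | rfl) | ⟨hu, -⟩)
        exacts [hu, hf, hu]
    have h1 : Disjoint U {f} := Set.disjoint_singleton_right.2 fun k => k.2 (Commute.refl f)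
    have := TypeTwentyTwo.ncard_perp hD hprim ht he
    rw [hunion, Set.ncard_union_eq hdisj, Set.ncard_union_eq h1, Set.ncard_singleton,
      show P.ncard = 180 from ncard_common_commute hD hprim ht he hf] at this
    omega
  have hcol : ∀ u ∈ U, (P ∩ perp D u).ncard = 45 := by
    intro u hu
    obtain ⟨p, hinj, hr, -⟩ := PairThree.exists_points_at hD hprim ht hf.1 hu.1.1 hu.2 (f := e)
      ((PairThree.common_iff hu.2).2 ⟨he, hf.2.2.symm, hu.1.2.2.symm⟩)
    have heq : P ∩ perp D u = common D f u ∩ perp D e := by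
      ext x
      refine ⟨fun hx => ⟨(PairThree.common_iff hu.2).2 ⟨hx.1.1.1, hx.1.2.2.2, hx.2.2.2⟩, hx.1.1⟩, fun hx => ?_⟩
      have h' := (PairThree.common_iff hu.2).1 hx.1
      refine ⟨⟨hx.2, h'.1, hx.1.2.1, h'.2.1⟩, h'.1, fun k => hu.2 ?_, h'.2.2⟩
      rw [← k]; exact h'.2.1
    rw [heq, ← hr, Set.ncard_range_of_injective hinj, Nat.card_eq_fintype_card, Fintype.card_fin]
  have hrow : ∀ g' ∈ P, (U ∩ perp D g').ncard + L + 1 = 180 := by
    intro g' hg'
    have h := ncard_common_commute hD hprim ht he hg'.1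
    have hunion : perp D e ∩ perp D g' = ((U ∩ perp D g') ∪ (P ∩ perp D g')) ∪ {f} := by
      ext u
      refine ⟨fun hu => ?_, ?_⟩
      · by_cases hcu : Commute f u
        · by_cases huf : u = f
          · exact Or.inr huf
          · exact Or.inl (Or.inr ⟨⟨hu.1, hu.1.1, huf, hcu⟩, hu.2⟩)
        · exact Or.inl (Or.inl ⟨⟨hu.1, hcu⟩, hu.2⟩)
      · rintro ((hu | hu) | rfl)
        exacts [⟨hu.1.1, hu.2⟩, ⟨hu.1.1, hu.2⟩, ⟨hf, hf.1, hg'.2.2.1.symm, hg'.2.2.2.symm⟩]
    have hd1 : Disjoint (U ∩ perp D g') (P ∩ perp D g') :=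
      Set.disjoint_left.2 fun u h1 h2 => h1.1.2 h2.1.2.2.2
    have hd2 : Disjoint ((U ∩ perp D g') ∪ (P ∩ perp D g')) {f} :=
      Set.disjoint_singleton_right.2 fun k => k.elim (fun k => k.1.2 (Commute.refl f)) fun k => k.1.2.2.1 rfl
    rw [hunion, Set.ncard_union_eq hd2, Set.ncard_union_eq hd1, Set.ncard_singleton, hconst g' hg'] at h
    exact h
  let pF : Finset Q := Finset.univ.filter fun x => x ∈ P
  let uF : Finset Q := Finset.univ.filter fun x => x ∈ U
  have hcnt : ∀ (R : Set Q) (p : Q → Prop) [DecidablePred p] (F : Finset Q), (∀ x, x ∈ F ∧ p x ↔ x ∈ R) →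
      ∑ x ∈ F, (if p x then 1 else 0) = R.ncard := by
    intro R p _ F h
    rw [Finset.sum_boole, Nat.cast_id, ← Set.ncard_coe_finset]
    congr 1
    ext x
    rw [Finset.coe_filter, Set.mem_ofPred_eq, h]
  have hA : ∑ g' ∈ pF, ∑ u ∈ uF, (if u ∈ perp D g' then 1 else 0) = ∑ g' ∈ pF, (179 - L) := by
    refine Finset.sum_congr rfl fun g' hg' => ?_
    rw [hcnt (U ∩ perp D g') _ _ fun x => by simp [uF]]
    have := hrow g' (by simpa [pF] using hg')
    omega
  have hB : ∑ u ∈ uF, ∑ g' ∈ pF, (if u ∈ perp D g' then 1 else 0) = ∑ u ∈ uF, 45 := by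
    refine Finset.sum_congr rfl fun u hu => ?_
    have hu' : u ∈ U := by simpa [uF] using hu
    rw [hcnt (P ∩ perp D u) _ _ fun x => ?_]
    · exact hcol u hu'
    · simp only [pF, Finset.mem_filter, Finset.mem_univ, true_and, Set.mem_inter_iff]
      exact ⟨fun h => ⟨h.1, h.1.1.1, Ne.symm h.2.2.1, h.2.2.2.symm⟩,
        fun h => ⟨h.1, hu'.1.1, Ne.symm h.2.2.1, h.2.2.2.symm⟩⟩
  rw [Finset.sum_comm, hB] at hA
  have hpc : pF.card = 180 := by
    rw [← ncard_common_commute hD hprim ht he hf, ← Set.ncard_coe_finset]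
    congr 1
    ext x
    simp [pF, P]
  have huc : uF.card = 512 := by
    rw [← hU, ← Set.ncard_coe_finset]
    congr 1
    ext x
    simp [uF]
  simp only [Finset.sum_const, smul_eq_mul, hpc, huc] at hA
  omega

end CfsgLib.Fischer.M23Recog
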