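import Cfsg.Agent.Lib.Fischer.M23Recog.Shape
import Cfsg.Agent.Lib.Fischer.M23Recog.Four
import Cfsg.Agent.Lib.Fischer.DoubleM22.Orbit
import Cfsg.Agent.Lib.Fischer.M22Sylow.FiveMembers

/-!
An involution whose centralizer is a perfect double cover of a group of type M(22), not weakly closed in it:
its conjugates in the centralizer other than itself are one lift of each member, and the class carries the
local data of type M(23).
-/

set_option autoImplicit false
set_option linter.unusedSectionVars false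

namespace CfsgLib.Fischer.M23Recog

open CfsgLib.Fischer CfsgLib.Fischer.TypeTwentyTwo CfsgLib.Fischer.DoubleM22

variable {G : Type*} [Group G] [Finite G] {Q : Type*} [Group Q] [Finite Q] {d : G} {D : Set Q}
variable {C : Subgroup G} {π : C →* Q} {dC : C}

/-- The situation at one involution. -/
structure Setup (d : G) (C : Subgroup G) (π : C →* Q) (dC : C) (D : Set Q) : Prop where
  cent : C = Subgroup.centralizer ({d} : Set G)
  coe : (dC : G) = d
  double : IsDouble π dC
  tt : Cfsg.IsThreeTranspositionGroup D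
  prim : Cfsg.IsPrimitiveUnderConj D
  type22 : Cfsg.IsOfTypeM22 Q D
  nwc : ∃ g : G, g * d * g⁻¹ ∈ C ∧ g * d * g⁻¹ ≠ d

variable (hs : Setup d C π dC D)

include hs

theorem Setup.mem_iff {x : G} : x ∈ C ↔ Commute d x := by
  rw [hs.cent, Subgroup.mem_centralizer_singleton_iff]
  exact ⟨fun h => h.symm, fun h => h.symm⟩

theorem Setup.ne_one : d ≠ 1 := fun h => hs.double.ne (Subtype.ext (hs.coe.trans h))

theorem Setup.sq : d * d = 1 := hs.coe ▸ congrArg Subtype.val hs.double.sq

theorem Setup.class_order : ∀ a ∈ conjugatesOf d, orderOf a = 2 := by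
  intro a ha
  obtain ⟨g, rfl⟩ := isConj_iff.1 ha
  rw [show g * d * g⁻¹ = MulAut.conj g d from rfl, MulEquiv.orderOf_eq]
  exact orderOf_eq_prime (by rw [pow_two, hs.sq]) hs.ne_one

theorem Setup.class_inv (g : G) : ∀ a ∈ conjugatesOf d, g * a * g⁻¹ ∈ conjugatesOf d :=
  fun _ ha => IsConj.trans ha (isConj_iff.2 ⟨g, rfl⟩)

theorem Setup.perp_conj {c x : G} (hc : c ∈ C) (hx : x ∈ perp (conjugatesOf d) d) :
    c * x * c⁻¹ ∈ perp (conjugatesOf d) d := by
  have hcd : c * d * c⁻¹ = d := by rw [← ((hs.mem_iff).1 hc).eq, mul_inv_cancel_right]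
  refine ⟨hs.class_inv c x hx.1, fun k => hx.2.1 ((MulAut.conj c).injective (k.trans hcd.symm)), ?_⟩
  have := hx.2.2.map (MulAut.conj c)
  simp only [MulAut.conj_apply] at this
  rwa [hcd] at this

theorem Setup.dC_mem : d ∈ C := hs.coe ▸ dC.2

/-- The conjugates of the involution in its centralizer lie over members, at most one over each. -/
theorem Setup.lifts : (∀ x : C, (x : G) ∈ perp (conjugatesOf d) d → π x ∈ D) ∧
    (∀ e ∈ D, ∃ x : C, (x : G) ∈ perp (conjugatesOf d) d ∧ π x = e) ∧
    (∀ x y : C, (x : G) ∈ perp (conjugatesOf d) d → (y : G) ∈ perp (conjugatesOf d) d → π x = π y → x = y) := by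
  classical
  have hπ := hs.double
  have hD := hs.tt
  have hprim := hs.prim
  have ht := hs.type22
  have hcent : ∀ e ∈ D, Subgroup.centralizer ({e} : Set Q) = Subgroup.closure (perp D e) :=
    fun e he => centralizer_eq_closure hD hprim ht he
  have hJ := thompsonGenerated hD hprim ht
  obtain ⟨Bs⟩ := exists_base hD hprim ht hcent hJ
  let S : Set C := {x | x ∈ Bs.P π ∧ (x : G) ∈ perp (conjugatesOf d) d}
  -- twenty-two of them in the base
  have hS : S.ncard = 22 := by
    obtain ⟨T⟩ : Nonempty (Sylow 2 C) := inferInstance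
    obtain ⟨-, -, h23, -⟩ := thompson_orbit hs.cent hs.coe hπ hD hprim ht hcent hJ hs.nwc T _ rfl
    obtain ⟨c, hcS⟩ := thompson_P hπ hD hprim ht hcent Bs T
    rw [hcS, map_conj_subtype] at h23
    let A₀ := (Bs.P π).map C.subtype
    have hA : Set.ncard {x : G | x ∈ A₀ ∧ IsConj d x} = 23 := by
      rw [← h23, ← Set.ncard_image_of_injective _ (MulAut.conj (c : G)).injective]
      congr 1
      ext y
      constructor
      · rintro ⟨z, ⟨hz, hcz⟩, rfl⟩
        exact ⟨⟨z, hz, rfl⟩, hcz.trans (isConj_iff.2 ⟨(c : G), rfl⟩)⟩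
      · rintro ⟨⟨z, hz, rfl⟩, hcy⟩
        exact ⟨z, ⟨hz, hcy.trans (isConj_iff.2 ⟨(c : G), rfl⟩).symm⟩, rfl⟩
    have hdA : d ∈ {x : G | x ∈ A₀ ∧ IsConj d x} := by
      refine ⟨⟨dC, ?_, hs.coe⟩, IsConj.refl d⟩
      show π dC ∈ Bs.J
      rw [hπ.map_d]; exact one_mem _
    have him : C.subtype '' S = {x : G | x ∈ A₀ ∧ IsConj d x} \ {d} := by
      ext y
      constructor
      · rintro ⟨x, ⟨hxP, hx⟩, rfl⟩
        exact ⟨⟨⟨x, hxP, rfl⟩, hx.1⟩, hx.2.1⟩
      · rintro ⟨⟨⟨x, hxP, rfl⟩, hc⟩, hne⟩
        exact ⟨x, ⟨hxP, hc, hne, (hs.mem_iff).1 x.2⟩, rfl⟩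
    rw [← Set.ncard_image_of_injective S C.subtype_injective, him, Set.ncard_sdiff_singleton_of_mem hdA, hA]
  have hconj : ∀ (x c : C), (x : G) ∈ perp (conjugatesOf d) d →
      ((c * x * c⁻¹ : C) : G) ∈ perp (conjugatesOf d) d := fun x c hx => by
    rw [Subgroup.coe_mul, Subgroup.coe_mul, Subgroup.coe_inv]
    exact hs.perp_conj c.2 hx
  -- they lie over members
  have h1 : ∀ x : C, (x : G) ∈ perp (conjugatesOf d) d → π x ∈ D := by
    intro x hx
    have hxx : x * x = 1 := Subtype.ext (sq_of_orderOf (hs.class_order _ hx.1))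
    obtain ⟨m, hm, l, hnd, hlen, hlD, hlc, hprod⟩ :=
      exists_fact hD hprim ht (x := π x) (by rw [← map_mul, hxx, map_one])
    by_cases hm1 : m = 1
    · subst hm1
      obtain ⟨a, rfl⟩ := List.length_eq_one_iff.1 hlen
      rw [List.prod_singleton] at hprod
      exact hprod ▸ hlD a (by simp)
    by_cases hm0 : m = 0
    · subst hm0
      rw [List.length_eq_zero_iff.1 hlen, List.prod_nil] at hprod
      rcases (hπ.ker x).1 hprod.symm with e | e
      · have h2 := hs.class_order _ hx.1
        rw [e, Subgroup.coe_one, orderOf_one] at h2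
        omega
      · exact absurd ((congrArg Subtype.val e).trans hs.coe) hx.2.1
    exfalso
    let X : Set Q := {y | ∃ s ⊆ Bs.B, s.card = m ∧ setProd id s = y}
    have hsub : X ⊆ π '' S := by
      rintro _ ⟨s, hsB, hsm, rfl⟩
      obtain ⟨h, hh⟩ := trans_le_three hD hprim ht hm l s.toList hnd (Finset.nodup_toList _) hlen
        ((Finset.length_toList _).trans hsm) hlD (fun a ha => Bs.sub a (hsB (Finset.mem_toList.1 ha))) hlc
        (fun a ha b hb => Bs.comm a (hsB (Finset.mem_toList.1 ha)) b (hsB (Finset.mem_toList.1 hb)))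
      obtain ⟨c, rfl⟩ := hπ.surj h
      have hval : π (c * x * c⁻¹) = setProd id s := by
        rw [map_mul, map_mul, map_inv, ← MulAut.conj_apply, ← hprod, map_list_prod, hh, setProd, List.map_id]
      refine ⟨_, ⟨?_, hconj x c hx⟩, hval⟩
      show π (c * x * c⁻¹) ∈ Bs.J
      rw [hval]; exact Base.setProd_mem hD hprim ht hcent Bs hsB
    have hle := (Set.ncard_le_ncard hsub).trans (Set.ncard_image_le (f := π) (s := S))
    rw [hS] at hle
    by_cases hm2 : m = 2
    · subst hm2
      have e : X = ↑((Bs.B.powersetCard 2).image (setProd id)) := by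
        ext y
        simp only [X, Finset.coe_image, Set.mem_image, Finset.mem_coe, Finset.mem_powersetCard, Set.mem_setOf_eq]
        exact ⟨fun ⟨s, a, b, c⟩ => ⟨s, ⟨a, b⟩, c⟩, fun ⟨s, ⟨a, b⟩, c⟩ => ⟨s, a, b, c⟩⟩
      rw [e, Set.ncard_coe_finset, Finset.card_image_of_injOn, Finset.card_powersetCard, Bs.card,
        show Nat.choose 22 2 = 231 by decide] at hle
      · omega
      · intro s hs' t ht' he
        obtain ⟨a1, a2⟩ := Finset.mem_powersetCard.1 hs'
        obtain ⟨b1, b2⟩ := Finset.mem_powersetCard.1 ht'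
        exact Base.setProd_inj hD hprim ht hcent Bs a1 b1 (by omega) he
    · obtain rfl : m = 3 := by omega
      rw [show X.ncard = 770 from Base.ncard_three hD hprim ht hcent Bs] at hle
      omega
  -- one over each member
  have h2 : ∀ e ∈ D, ∃ x : C, (x : G) ∈ perp (conjugatesOf d) d ∧ π x = e := by
    intro e he
    obtain ⟨x, hx⟩ := Set.nonempty_of_ncard_ne_zero (s := S) (by omega)
    obtain ⟨g, hg⟩ := hprim.1 _ (h1 x hx.2) e he
    obtain ⟨c, rfl⟩ := hπ.surj g
    exact ⟨_, hconj x c hx.2, by rw [map_mul, map_mul, map_inv, hg]⟩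
  refine ⟨h1, h2, fun x y hx hy he => ?_⟩
  by_contra hne
  have hyx : y = dC * x := (hπ.lift_eq he.symm).resolve_left (Ne.symm hne)
  have hboth : ∀ e ∈ D, ∃ z : C, (z : G) ∈ perp (conjugatesOf d) d ∧ π z = e ∧
      ((dC * z : C) : G) ∈ perp (conjugatesOf d) d := by
    intro e he
    obtain ⟨g, hg⟩ := hprim.1 _ (h1 x hx) e he
    obtain ⟨c, rfl⟩ := hπ.surj g
    refine ⟨_, hconj x c hx, by rw [map_mul, map_mul, map_inv, hg], ?_⟩
    have := hconj y c hy
    rwa [hyx, show c * (dC * x) * c⁻¹ = dC * (c * x * c⁻¹) by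
      rw [← mul_assoc c dC x, ← (hπ.central c).eq]; group] at this
  choose z hz hzπ hzd using hboth
  let f : {b // b ∈ Bs.B} × Bool → C := fun p =>
    cond p.2 (dC * z p.1.1 (Bs.sub _ p.1.2)) (z p.1.1 (Bs.sub _ p.1.2))
  have hfπ : ∀ p, π (f p) = p.1.1 := by
    rintro ⟨b, _ | _⟩
    · exact hzπ _ _
    · show π (dC * z b.1 _) = b.1
      rw [map_mul, hπ.map_d, one_mul, hzπ]
  have hf : ∀ p, f p ∈ S := by
    intro p
    refine ⟨?_, ?_⟩
    · show π (f p) ∈ Bs.J
      rw [hfπ]; exact Subgroup.subset_closure p.1.2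
    · rcases p with ⟨b, _ | _⟩
      exacts [hz _ _, hzd _ _]
  have hinj : Function.Injective f := by
    rintro ⟨b, s⟩ ⟨b', s'⟩ h
    obtain rfl : b = b' := Subtype.ext (by rw [← hfπ (b, s), h, hfπ])
    rcases s with _ | _ <;> rcases s' with _ | _
    · rfl
    · exact absurd (right_eq_mul.1 h) hπ.ne
    · exact absurd (mul_eq_right.1 h) hπ.ne
    · rfl
  have hle := Set.ncard_le_ncard (show Set.range f ⊆ S from Set.range_subset_iff.2 hf)
  rw [Set.ncard_range_of_injective hinj, hS, Nat.card_prod, Nat.card_eq_fintype_card, Fintype.card_coe, Bs.card,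
    Nat.card_eq_fintype_card, Fintype.card_bool] at hle
  omega

theorem Setup.commute_iff {x y : C} (hx : (x : G) ∈ perp (conjugatesOf d) d)
    (hy : (y : G) ∈ perp (conjugatesOf d) d) : Commute (x : G) y ↔ Commute (π x) (π y) := by
  refine ⟨fun h => (show Commute x y from Subtype.ext h.eq).map π, fun h => ?_⟩
  have h2 : ∀ z : C, (z : G) ∈ perp (conjugatesOf d) d → π z * π z = 1 := fun z hz => by
    rw [← map_mul, show z * z = 1 from Subtype.ext (sq_of_orderOf (hs.class_order _ hz.1)), map_one]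
  exact (commute_lift hs.double hs.tt hs.prim hs.type22
    (fun e he => centralizer_eq_closure hs.tt hs.prim hs.type22 he) (h2 x hx) (h2 y hy) h).map C.subtype

theorem Setup.coe_inj_iff {x y : C} (hx : (x : G) ∈ perp (conjugatesOf d) d)
    (hy : (y : G) ∈ perp (conjugatesOf d) d) : (x : G) = y ↔ π x = π y :=
  ⟨fun h => congrArg π (Subtype.ext h), fun h => congrArg Subtype.val ((hs.lifts).2.2 x y hx hy h)⟩

/-- Sets of neighbours are counted among the members. -/
theorem Setup.ncard_eq_of {S : Set G} {S' : Set Q} (h1 : S ⊆ perp (conjugatesOf d) d) (h2 : S' ⊆ D)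
    (h : ∀ x : C, (x : G) ∈ perp (conjugatesOf d) d → ((x : G) ∈ S ↔ π x ∈ S')) : S.ncard = S'.ncard := by
  have e1 : C.subtype '' {x : C | (x : G) ∈ S} = S := by
    ext y
    refine ⟨?_, fun hy => ⟨⟨y, (hs.mem_iff).2 (h1 hy).2.2⟩, hy, rfl⟩⟩
    rintro ⟨x, hx, rfl⟩
    exact hx
  have e2 : π '' {x : C | (x : G) ∈ S} = S' := by
    ext q
    constructor
    · rintro ⟨x, hx, rfl⟩
      exact (h x (h1 hx)).1 hx
    · intro hq
      obtain ⟨x, hx, rfl⟩ := (hs.lifts).2.1 q (h2 hq)
      exact ⟨x, (h x hx).2 hq, rfl⟩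
  rw [← e1, ← e2, Set.ncard_image_of_injective _ C.subtype_injective]
  exact (Set.InjOn.ncard_image fun x hx y hy => (hs.lifts).2.2 x y (h1 hx) (h1 hy)).symm

theorem Setup.perp_iff {x y : C} (hx : (x : G) ∈ perp (conjugatesOf d) d)
    (hy : (y : G) ∈ perp (conjugatesOf d) d) : (x : G) ∈ perp (conjugatesOf d) (y : G) ↔ π x ∈ perp D (π y) := by
  have hne := not_congr (hs.coe_inj_iff hx hy)
  exact ⟨fun h => ⟨(hs.lifts).1 x hx, hne.1 h.2.1, (hs.commute_iff hy hx).1 h.2.2⟩,
    fun h => ⟨hx.1, hne.2 h.2.1, (hs.commute_iff hy hx).2 h.2.2⟩⟩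

theorem Setup.exists_six {x : C} (hx : (x : G) ∈ perp (conjugatesOf d) d) :
    ∃ l : List C, l.length = 5 ∧ (∀ y ∈ l, (y : G) ∈ both (conjugatesOf d) d (x : G)) ∧
      (∀ y ∈ l, ∀ z ∈ l, Commute (y : G) z) ∧ d = (x : G) * ((l.map C.subtype).prod) ∧
      ((x :: l).map π).Nodup := by
  have hD := hs.tt
  have hprim := hs.prim
  have ht := hs.type22
  have hcent : ∀ e ∈ D, Subgroup.centralizer ({e} : Set Q) = Subgroup.closure (perp D e) :=
    fun e he => centralizer_eq_closure hD hprim ht he
  obtain ⟨l₀, hlen, hl, hnd, hcomm, -, hprod⟩ := exists_relation hD hprim ht hs.double hcent (t₀ := x)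
    ((hs.lifts).1 x hx)
  have hlp : ∀ u ∈ l₀, (u : G) ∈ perp (conjugatesOf d) d := fun u hu => by
    obtain ⟨c, rfl⟩ := isConj_iff.1 (hl u hu).1
    rw [Subgroup.coe_mul, Subgroup.coe_mul, Subgroup.coe_inv]
    exact hs.perp_conj c.2 hx
  match l₀, hlen with
  | u :: l, hlen =>
    obtain ⟨c, hc⟩ := isConj_iff.1 (hl u List.mem_cons_self).1.symm
    let φ : C → C := fun y => c * y * c⁻¹
    have hxl : (x :: l.map φ) = (u :: l).map φ := by rw [List.map_cons, show φ u = x from hc]
    have hmem : ∀ y ∈ (u :: l).map φ, (y : G) ∈ perp (conjugatesOf d) d := by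
      intro y hy
      obtain ⟨z, hz, rfl⟩ := List.mem_map.1 hy
      show ((c * z * c⁻¹ : C) : G) ∈ _
      rw [Subgroup.coe_mul, Subgroup.coe_mul, Subgroup.coe_inv]
      exact hs.perp_conj c.2 (hlp z hz)
    have hnd' : (((u :: l).map φ).map π).Nodup := by
      rw [List.map_map, show π ∘ φ = (MulAut.conj (π c)) ∘ π from funext fun y => by simp [φ], ← List.map_map]
      exact hnd.map (MulAut.conj (π c)).injective
    have hcm : ∀ y ∈ (u :: l).map φ, ∀ z ∈ (u :: l).map φ, Commute (y : G) z := by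
      intro y hy z hz
      rw [hs.commute_iff (hmem y hy) (hmem z hz)]
      obtain ⟨y, hy', rfl⟩ := List.mem_map.1 hy
      obtain ⟨z, hz', rfl⟩ := List.mem_map.1 hz
      simpa [φ] using (hcomm y hy' z hz').map (MulAut.conj (π c))
    rw [← hxl] at hmem hnd' hcm
    refine ⟨l.map φ, by simpa using hlen, fun y hy => ⟨hmem y (List.mem_cons_of_mem _ hy), ?_⟩,
      fun y hy z hz => hcm y (List.mem_cons_of_mem _ hy) z (List.mem_cons_of_mem _ hz), ?_, hnd'⟩
    · refine ⟨(hmem y (List.mem_cons_of_mem _ hy)).1, fun k => ?_,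
        hcm x List.mem_cons_self y (List.mem_cons_of_mem _ hy)⟩
      rw [List.map_cons, List.nodup_cons] at hnd'
      exact hnd'.1 (List.mem_map.2 ⟨y, hy, congrArg π (Subtype.ext k)⟩)
    · have e : (x :: l.map φ).prod = dC := by
        rw [hxl, show φ = MulAut.conj c from rfl, ← map_list_prod, hprod, MulAut.conj_apply,
          ← (hs.double.central c).eq, mul_inv_cancel_right]
      have := congrArg C.subtype e
      rw [List.prod_cons, map_mul, map_list_prod] at this
      exact (this.trans hs.coe).symm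

/-- The neighbours generate the centralizer. -/
theorem Setup.closure_perp : Subgroup.closure (perp (conjugatesOf d) d) = C := by
  refine le_antisymm ((Subgroup.closure_le _).2 fun x hx => (hs.mem_iff).2 hx.2.2) fun g hg => ?_
  let K := (Subgroup.closure (perp (conjugatesOf d) d)).comap C.subtype
  have hmap : K.map π = ⊤ := by
    rw [eq_top_iff, ← hs.tt.2.2, Subgroup.closure_le]
    intro q hq
    obtain ⟨x, hx, rfl⟩ := (hs.lifts).2.1 q hq
    exact ⟨x, Subgroup.subset_closure hx, rfl⟩
  obtain ⟨e, he, -⟩ := id hs.prim.2.1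
  obtain ⟨x, hx, -⟩ := (hs.lifts).2.1 e he
  obtain ⟨l, -, hl, -, hd, -⟩ := hs.exists_six hx
  have hdK : d ∈ Subgroup.closure (perp (conjugatesOf d) d) := by
    refine Eq.subst (motive := fun u => u ∈ Subgroup.closure (perp (conjugatesOf d) d)) hd.symm ?_
    refine mul_mem (Subgroup.subset_closure hx) (Subgroup.list_prod_mem _ fun y hy => ?_)
    obtain ⟨z, hz, rfl⟩ := List.mem_map.1 hy
    exact Subgroup.subset_closure (hl z hz).1
  obtain ⟨k, hk, hkg⟩ : π ⟨g, hg⟩ ∈ K.map π := hmap ▸ Subgroup.mem_top _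
  rcases hs.double.lift_eq hkg.symm with h | h
  · rw [← show ((⟨g, hg⟩ : C) : G) = g from rfl, h]
    exact hk
  · rw [← show ((⟨g, hg⟩ : C) : G) = g from rfl, h, Subgroup.coe_mul, hs.coe]
    exact mul_mem hdK hk

theorem Setup.shape_invols (i : G) (hid : Commute i d) (hii : i * i = 1) (hi : i ≠ 1) :
    i ∈ conjugatesOf d ∨ (∃ x ∈ conjugatesOf d, ∃ y ∈ perp (conjugatesOf d) x, i = x * y) ∨
      ∃ x ∈ conjugatesOf d, ∃ y ∈ perp (conjugatesOf d) x, ∃ z ∈ both (conjugatesOf d) x y, i = x * (y * z) := by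
  classical
  have hD := hs.tt
  have hprim := hs.prim
  have ht := hs.type22
  have hdT : d ∈ conjugatesOf d := mem_conjugatesOf_self
  let iC : C := ⟨i, (hs.mem_iff).2 hid.symm⟩
  have hiC : iC * iC = 1 := Subtype.ext hii
  obtain ⟨m, hm, l, hnd, hlen, hlD, hlc, hprod⟩ :=
    exists_fact hD hprim ht (x := π iC) (by rw [← map_mul, hiC, map_one])
  choose lift hlift hliftπ using (hs.lifts).2.1
  have hne : ∀ {a b : C}, (a : G) ∈ perp (conjugatesOf d) d → (b : G) ∈ perp (conjugatesOf d) d → π a ≠ π b →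
      Commute (π a) (π b) → (b : G) ∈ perp (conjugatesOf d) (a : G) := fun {a b} ha hb k1 k2 =>
    ⟨hb.1, fun k => k1 ((hs.coe_inj_iff ha hb).1 k.symm), (hs.commute_iff ha hb).2 k2⟩
  have hcase : ∀ (p : C), π iC = π p → i = (p : G) ∨ i = d * p := fun p hp => by
    rcases hs.double.lift_eq hp with h | h
    · exact Or.inl (congrArg Subtype.val h)
    · refine Or.inr ((congrArg Subtype.val h).trans ?_)
      rw [Subgroup.coe_mul, hs.coe]
  obtain rfl | rfl | rfl | rfl : m = 0 ∨ m = 1 ∨ m = 2 ∨ m = 3 := by omega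
  · rw [List.length_eq_zero_iff.1 hlen, List.prod_nil] at hprod
    rcases hcase 1 (hprod.symm.trans (map_one π).symm) with h | h
    · exact absurd h hi
    · exact Or.inl (by rw [h, Subgroup.coe_one, mul_one]; exact hdT)
  · obtain ⟨e, rfl⟩ := List.length_eq_one_iff.1 hlen
    rw [List.prod_singleton] at hprod
    have hx := hlift e (hlD e (by simp))
    rcases hcase (lift e (hlD e (by simp))) (hprod.symm.trans (hliftπ _ _).symm) with h | h
    · exact Or.inl (h ▸ hx.1)
    · exact Or.inr (Or.inl ⟨d, hdT, _, hx, h⟩)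
  · match l, hlen with
    | [e, f], _ =>
      simp only [List.nodup_cons, List.mem_cons, List.not_mem_nil, or_false] at hnd
      rw [List.prod_cons, List.prod_singleton] at hprod
      have he := hlD e (by simp)
      have hf := hlD f (by simp)
      have hxy : (lift f hf : G) ∈ perp (conjugatesOf d) (lift e he : G) :=
        hne (hlift e he) (hlift f hf) (by rw [hliftπ, hliftπ]; exact hnd.1)
          (by rw [hliftπ, hliftπ]; exact hlc e (by simp) f (by simp))
      rcases hcase (lift e he * lift f hf) (by rw [map_mul, hliftπ, hliftπ, hprod]) with h | h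
      · exact Or.inr (Or.inl ⟨_, (hlift e he).1, _, hxy, h⟩)
      · exact Or.inr (Or.inr ⟨d, hdT, _, hlift e he, _, ⟨hlift f hf, hxy⟩, h⟩)
  · match l, hlen with
    | [e, f, g], _ =>
      have hnd0 := hnd
      simp only [List.nodup_cons, List.mem_cons, List.not_mem_nil, or_false, not_or] at hnd
      rw [List.prod_cons, List.prod_cons, List.prod_singleton] at hprod
      have he := hlD e (by simp)
      have hf := hlD f (by simp)
      have hg := hlD g (by simp)
      rcases hcase (lift e he * (lift f hf * lift g hg)) (by rw [map_mul, map_mul, hliftπ, hliftπ, hliftπ, hprod])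
        with h | h
      · refine Or.inr (Or.inr ⟨_, (hlift e he).1, _, ?_, _, ⟨?_, ?_⟩, h⟩)
        · exact hne (hlift e he) (hlift f hf) (by rw [hliftπ, hliftπ]; exact hnd.1.1)
            (by rw [hliftπ, hliftπ]; exact hlc e (by simp) f (by simp))
        · exact hne (hlift e he) (hlift g hg) (by rw [hliftπ, hliftπ]; exact hnd.1.2)
            (by rw [hliftπ, hliftπ]; exact hlc e (by simp) g (by simp))
        · exact hne (hlift f hf) (hlift g hg) (by rw [hliftπ, hliftπ]; exact hnd.2.1)
            (by rw [hliftπ, hliftπ]; exact hlc f (by simp) g (by simp))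
      · -- six lifts with product `d`, three of them over the factors
        obtain ⟨l₅, hl5, hl, hlcomm, hd6, hnd6⟩ := hs.exists_six (hlift e he)
        match l₅, hl5 with
        | [y2, y3, y4, y5, y6], _ =>
          have hmem : ∀ y ∈ [lift e he, y2, y3], (y : G) ∈ perp (conjugatesOf d) d := by
            intro y hy
            rcases List.mem_cons.1 hy with rfl | hy
            · exact hlift e he
            · exact (hl y (List.Sublist.subset (by simp) hy)).1
          have hsub : ([π (lift e he), π y2, π y3] : List Q).Sublist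
              ([lift e he, y2, y3, y4, y5, y6].map π) := by simp
          obtain ⟨k, hk⟩ := trans_le_three hD hprim ht (le_refl 3) [π (lift e he), π y2, π y3] [e, f, g]
            (hnd6.sublist hsub) hnd0 rfl rfl
            (fun a ha => by
              simp only [List.mem_cons, List.not_mem_nil, or_false] at ha
              rcases ha with rfl | rfl | rfl <;> exact (hs.lifts).1 _ (hmem _ (by simp)))
            hlD
            (fun a ha b hb => by
              have hcc : ∀ y ∈ [lift e he, y2, y3], ∀ z ∈ [lift e he, y2, y3], Commute (π y) (π z) := by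
                intro y hy z hz
                refine (hs.commute_iff (hmem y hy) (hmem z hz)).1 ?_
                rcases List.mem_cons.1 hy with rfl | hy <;> rcases List.mem_cons.1 hz with rfl | hz
                · exact Commute.refl _
                · exact (hl z (List.Sublist.subset (by simp) hz)).2.2.2
                · exact (hl y (List.Sublist.subset (by simp) hy)).2.2.2.symm
                · exact hlcomm y (List.Sublist.subset (by simp) hy) z (List.Sublist.subset (by simp) hz)
              obtain ⟨y, hy, rfl⟩ := List.mem_map.1 (show a ∈ [lift e he, y2, y3].map π by simpa using ha)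
              obtain ⟨z, hz, rfl⟩ := List.mem_map.1 (show b ∈ [lift e he, y2, y3].map π by simpa using hb)
              exact hcc y hy z hz)
            hlc
          obtain ⟨c, rfl⟩ := hs.double.surj k
          simp only [List.map_cons, List.map_nil, List.cons.injEq, and_true, MulAut.conj_apply, ← map_inv,
            ← map_mul] at hk
          obtain ⟨k1, k2, k3⟩ := hk
          let φ : C → C := fun y => c * y * c⁻¹
          have hφ : ∀ {y : C}, (y : G) ∈ perp (conjugatesOf d) d → (φ y : G) ∈ perp (conjugatesOf d) d :=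
            fun {y} hy => by
              show ((c * y * c⁻¹ : C) : G) ∈ _
              rw [Subgroup.coe_mul, Subgroup.coe_mul, Subgroup.coe_inv]
              exact hs.perp_conj c.2 hy
          have e1 : φ (lift e he) = lift e he :=
            (hs.lifts).2.2 _ _ (hφ (hlift e he)) (hlift e he) (by rw [hliftπ]; exact k1)
          have e2 : φ y2 = lift f hf := (hs.lifts).2.2 _ _ (hφ (hmem y2 (by simp))) (hlift f hf)
            (by rw [hliftπ]; exact k2)
          have e3 : φ y3 = lift g hg := (hs.lifts).2.2 _ _ (hφ (hmem y3 (by simp))) (hlift g hg)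
            (by rw [hliftπ]; exact k3)
          have hdC : dC = (lift e he * (lift f hf * lift g hg)) * (φ y4 * (φ y5 * φ y6)) := by
            have h0 : dC = lift e he * (y2 * (y3 * (y4 * (y5 * y6)))) := by
              refine Subtype.ext (hs.coe.trans (hd6.trans ?_))
              simp only [List.map_cons, List.map_nil, List.prod_cons, List.prod_nil, mul_one, Subgroup.coe_mul]
              rfl
            calc dC = c * dC * c⁻¹ := by rw [← (hs.double.central c).eq, mul_inv_cancel_right]
              _ = φ (lift e he) * (φ y2 * (φ y3 * (φ y4 * (φ y5 * φ y6)))) := by rw [h0]; simp only [φ]; group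
              _ = _ := by rw [e1, e2, e3]; group
          have hp : (lift e he * (lift f hf * lift g hg)) * (lift e he * (lift f hf * lift g hg)) = 1 := by
            rcases hs.double.lift_eq (a := iC) (b := lift e he * (lift f hf * lift g hg))
              (by rw [map_mul, map_mul, hliftπ, hliftπ, hliftπ, hprod]) with k | k
            · rw [← k]; exact hiC
            · rw [k] at hiC
              rwa [show dC * (lift e he * (lift f hf * lift g hg)) * (dC * (lift e he * (lift f hf * lift g hg))) =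
                dC * ((lift e he * (lift f hf * lift g hg)) * dC) * (lift e he * (lift f hf * lift g hg)) by group,
                ← (hs.double.central _).eq, ← mul_assoc dC dC, hs.double.sq, one_mul] at hiC
          have hi' : i = (φ y4 : G) * ((φ y5 : G) * (φ y6 : G)) := by
            have : dC * (lift e he * (lift f hf * lift g hg)) = φ y4 * (φ y5 * φ y6) := by
              rw [(hs.double.central _).eq]
              conv_lhs => rw [hdC, ← mul_assoc, hp, one_mul]
            rw [h, ← hs.coe, ← Subgroup.coe_mul, this]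
            simp only [Subgroup.coe_mul]
          have hpair : ∀ {p q : C}, p ∈ [y4, y5, y6] → q ∈ [y4, y5, y6] → π p ≠ π q →
              (φ q : G) ∈ perp (conjugatesOf d) (φ p : G) := fun {p q} hp hq hpq => by
            have hpm := hl p (List.Sublist.subset (by simp) hp)
            have hqm := hl q (List.Sublist.subset (by simp) hq)
            refine hne (hφ hpm.1) (hφ hqm.1) (fun k => hpq ?_) ?_
            · simpa [φ] using k
            · simp only [φ, map_mul, map_inv]
              exact ((hs.commute_iff hpm.1 hqm.1).1 (hlcomm p (List.Sublist.subset (by simp) hp) q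
                (List.Sublist.subset (by simp) hq))).map (MulAut.conj (π c))
          simp only [List.map_cons, List.map_nil, List.nodup_cons, List.mem_cons, List.not_mem_nil, or_false,
            not_or] at hnd6
          exact Or.inr (Or.inr ⟨_, (hφ (hl y4 (by simp)).1).1, _, hpair (by simp) (by simp) hnd6.2.2.2.1.1, _,
            ⟨hpair (by simp) (by simp) hnd6.2.2.2.1.2, hpair (by simp) (by simp) hnd6.2.2.2.2.1⟩, hi'⟩)

/-- The class carries the local data. -/
theorem Setup.shape : Shape (conjugatesOf d) := by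
  classical
  have hD := hs.tt
  have hprim := hs.prim
  have ht := hs.type22
  have hdT : d ∈ conjugatesOf d := mem_conjugatesOf_self
  obtain ⟨h1, h2, h3⟩ := hs.lifts
  have lift : ∀ {x : G}, x ∈ perp (conjugatesOf d) d → ∃ xC : C, (xC : G) = x := fun {x} hx =>
    ⟨⟨x, (hs.mem_iff).2 hx.2.2⟩, rfl⟩
  have move : ∀ a ∈ conjugatesOf d, ∃ g : G, g * d * g⁻¹ = a := fun a ha => isConj_iff.1 ha
  have himp : ∀ (g a : G), (MulAut.conj g) '' perp (conjugatesOf d) a = perp (conjugatesOf d) (MulAut.conj g a) := by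
    intro g a
    ext x
    constructor
    · rintro ⟨y, hy, rfl⟩
      exact ⟨hs.class_inv g y hy.1, fun k => hy.2.1 ((MulAut.conj g).injective k), hy.2.2.map (MulAut.conj g)⟩
    · intro hx
      refine ⟨g⁻¹ * x * g, ⟨by simpa using hs.class_inv g⁻¹ x hx.1, fun k => hx.2.1 ?_, ?_⟩, by simp [mul_assoc]⟩
      · rw [← k]; simp [mul_assoc]
      · have := hx.2.2.map (MulAut.conj g⁻¹)
        simpa [mul_assoc] using this
  have back : ∀ {g a x : G}, MulAut.conj g d = a → x ∈ perp (conjugatesOf d) a →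
      ∃ x' ∈ perp (conjugatesOf d) d, MulAut.conj g x' = x := fun {g a x} hg hx => by
    rw [← hg, ← himp] at hx
    exact hx
  have ncard_move : ∀ (g : G) (a b : G),
      (both (conjugatesOf d) (MulAut.conj g a) (MulAut.conj g b)).ncard = (both (conjugatesOf d) a b).ncard := by
    intro g a b
    rw [both, ← himp, ← himp, ← Set.image_inter (MulAut.conj g).injective,
      Set.ncard_image_of_injective _ (MulAut.conj g).injective]
    rfl
  refine ⟨hs.class_order, hs.class_inv, fun a ha b hb => isConj_iff.1 ((IsConj.symm ha).trans hb),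
    ?_, ?_, ?_, ?_, ?_, ?_, ?_, ?_, ?_, ?_, ?_, ?_⟩
  · -- cube
    intro a ha x hx y hy
    obtain ⟨g, hg⟩ := move a ha
    obtain ⟨x', hx', rfl⟩ := back hg hx
    obtain ⟨y', hy', rfl⟩ := back hg hy
    obtain ⟨xC, rfl⟩ := lift hx'
    obtain ⟨yC, rfl⟩ := lift hy'
    rw [← map_mul, ← map_pow]
    by_cases hc : Commute (π xC) (π yC)
    · exact Or.inl (((hs.commute_iff hx' hy').2 hc).map (MulAut.conj g))
    right
    rw [MulEquiv.map_eq_one_iff]
    have h3' := cube_of_not_commute hD.1 (h1 xC hx') (h1 yC hy') hc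
    rw [← map_mul, ← map_pow] at h3'
    rcases (hs.double.ker _).1 h3' with h | h
    · rw [← Subgroup.coe_mul, ← Subgroup.coe_pow, h, Subgroup.coe_one]
    exfalso
    have hx2 : xC * xC = 1 := Subtype.ext (sq_of_orderOf (hs.class_order _ hx'.1))
    have hy2 : yC * yC = 1 := Subtype.ext (sq_of_orderOf (hs.class_order _ hy'.1))
    have e : xC * yC * xC = dC * (yC * xC * yC) := by
      rw [← h, show (xC * yC) ^ 3 = xC * yC * xC * (yC * xC * yC) by simp [pow_succ, mul_assoc],
        show xC * yC * xC * (yC * xC * yC) * (yC * xC * yC) = xC * yC * xC * (yC * xC * (yC * yC) * xC * yC) by group,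
        hy2, mul_one, show yC * xC * xC * yC = yC * (xC * xC) * yC by group, hx2, mul_one, hy2, mul_one]
    have hc1 : ((xC * yC * xC : C) : G) ∈ perp (conjugatesOf d) d := by
      have := hs.perp_conj xC.2 hy'
      rwa [inv_of_orderOf (hs.class_order _ hx'.1)] at this
    have hc2 : ((yC * xC * yC : C) : G) ∈ perp (conjugatesOf d) d := by
      have := hs.perp_conj yC.2 hx'
      rwa [inv_of_orderOf (hs.class_order _ hy'.1)] at this
    have := h3 _ _ hc1 hc2 (by rw [e, map_mul, hs.double.map_d, one_mul])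
    rw [e, mul_eq_right] at this
    exact hs.double.ne this
  · -- trans
    intro a ha x hx y hy
    obtain ⟨g, hg⟩ := move a ha
    obtain ⟨x', hx', rfl⟩ := back hg hx
    obtain ⟨y', hy', rfl⟩ := back hg hy
    obtain ⟨xC, rfl⟩ := lift hx'
    obtain ⟨yC, rfl⟩ := lift hy'
    obtain ⟨q, hq⟩ := hprim.1 _ (h1 xC hx') _ (h1 yC hy')
    obtain ⟨c, rfl⟩ := hs.double.surj q
    have hcd : Commute (c : G) d := ((hs.mem_iff).1 c.2).symm
    refine ⟨MulAut.conj g c, hg ▸ hcd.map (MulAut.conj g), ?_⟩
    rw [← map_inv, ← map_mul, ← map_mul]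
    congr 1
    have := h3 (c * xC * c⁻¹) yC (by
      rw [Subgroup.coe_mul, Subgroup.coe_mul, Subgroup.coe_inv]; exact hs.perp_conj c.2 hx') hy'
      (by rw [map_mul, map_mul, map_inv, hq])
    exact congrArg Subtype.val this
  · -- duad
    intro a ha x hx hax
    obtain ⟨g, hg⟩ := move a ha
    obtain ⟨x', hx', rfl⟩ := back hg hx
    obtain ⟨xC, rfl⟩ := lift hx'
    have hdx : d * (xC : G) ∈ conjugatesOf d := by
      have := hs.class_inv g⁻¹ _ hax
      rw [← hg] at this
      simpa [MulAut.conj_apply, mul_assoc] using this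
    have hne : d * (xC : G) ≠ d := fun k => by
      have := hs.class_order _ hx'.1
      rw [mul_eq_left.1 k, orderOf_one] at this
      omega
    have hmem : ((dC * xC : C) : G) ∈ perp (conjugatesOf d) d := by
      rw [Subgroup.coe_mul, hs.coe]
      exact ⟨hdx, hne, (Commute.refl d).mul_right hx'.2.2⟩
    have := h3 _ xC hmem hx' (by rw [map_mul, hs.double.map_d, one_mul])
    exact hs.double.ne (mul_eq_right.1 this)
  · -- card_perp
    intro a ha
    obtain ⟨g, hg⟩ := move a ha
    rw [← hg, show g * d * g⁻¹ = MulAut.conj g d from rfl, ← himp,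
      Set.ncard_image_of_injective _ (MulAut.conj g).injective,
      hs.ncard_eq_of (S' := D) (subset_refl _) (subset_refl _) fun x hx => iff_of_true hx (h1 x hx)]
    exact TypeTwentyTwo.ncard_eq hD hprim ht
  · -- card_pair
    intro a ha x hx
    obtain ⟨g, hg⟩ := move a ha
    obtain ⟨x', hx', rfl⟩ := back hg hx
    obtain ⟨xC, rfl⟩ := lift hx'
    rw [← hg, show g * d * g⁻¹ = MulAut.conj g d from rfl, ncard_move]
    refine (hs.ncard_eq_of (S := both (conjugatesOf d) d (xC : G)) (S' := perp D (π xC)) Set.inter_subset_left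
      (fun y hy => hy.1) fun z hz => ⟨fun h => (hs.perp_iff hz hx').1 h.2, fun h => ⟨hz, (hs.perp_iff hz hx').2 h⟩⟩).trans ?_
    exact TypeTwentyTwo.ncard_perp hD hprim ht (h1 xC hx')
  · -- card_triangle
    intro a ha x hx y hy
    obtain ⟨g, hg⟩ := move a ha
    obtain ⟨x', hx', rfl⟩ := back hg hx
    obtain ⟨y', hy', rfl⟩ := back hg hy.1
    obtain ⟨xC, rfl⟩ := lift hx'
    obtain ⟨yC, rfl⟩ := lift hy'
    have hyx : (yC : G) ∈ perp (conjugatesOf d) (xC : G) := by
      have := hy.2
      rw [← himp] at this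
      obtain ⟨u, hu, k⟩ := this
      rwa [← (MulAut.conj g).injective k]
    rw [← hg, show g * d * g⁻¹ = MulAut.conj g d from rfl, both, ← himp, ← himp, ← himp,
      ← Set.image_inter (MulAut.conj g).injective, ← Set.image_inter (MulAut.conj g).injective,
      Set.ncard_image_of_injective _ (MulAut.conj g).injective]
    refine (hs.ncard_eq_of (S := perp (conjugatesOf d) d ∩ perp (conjugatesOf d) (xC : G) ∩ perp (conjugatesOf d) (yC : G)) (S' := perp D (π xC) ∩ perp D (π yC)) (fun z hz => hz.1.1) (fun z hz => hz.1.1)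
        fun z hz => ⟨fun h => ⟨(hs.perp_iff hz hx').1 h.1.2, (hs.perp_iff hz hy').1 h.2⟩,
          fun h => ⟨⟨hz, (hs.perp_iff hz hx').2 h.1⟩, (hs.perp_iff hz hy').2 h.2⟩⟩).trans ?_
    exact ncard_common_commute hD hprim ht (h1 xC hx') ((hs.perp_iff hy' hx').1 hyx)
  · -- card_four
    intro a ha x hx y hy w hw
    obtain ⟨g, hg⟩ := move a ha
    obtain ⟨x', hx', rfl⟩ := back hg hx
    obtain ⟨y', hy', rfl⟩ := back hg hy.1
    obtain ⟨w', hw', rfl⟩ := back hg hw.1.1
    obtain ⟨xC, rfl⟩ := lift hx'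
    obtain ⟨yC, rfl⟩ := lift hy'
    obtain ⟨wC, rfl⟩ := lift hw'
    have unmove : ∀ {p q : G}, MulAut.conj g p ∈ perp (conjugatesOf d) (MulAut.conj g q) →
        p ∈ perp (conjugatesOf d) q := fun {p q} h => by
      rw [← himp] at h
      obtain ⟨u, hu, k⟩ := h
      rwa [← (MulAut.conj g).injective k]
    have hyx := unmove hy.2
    have hwx := unmove hw.1.2
    have hwy := unmove hw.2
    rw [← hg, show g * d * g⁻¹ = MulAut.conj g d from rfl, both, both, ← himp, ← himp, ← himp, ← himp,
      ← Set.image_inter (MulAut.conj g).injective, ← Set.image_inter (MulAut.conj g).injective,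
      ← Set.image_inter (MulAut.conj g).injective, Set.ncard_image_of_injective _ (MulAut.conj g).injective]
    refine (hs.ncard_eq_of (S := perp (conjugatesOf d) d ∩ perp (conjugatesOf d) (xC : G) ∩ (perp (conjugatesOf d) (yC : G) ∩ perp (conjugatesOf d) (wC : G))) (S' := perp D (π xC) ∩ perp D (π yC) ∩ perp D (π wC)) (fun z hz => hz.1.1)
        (fun z hz => hz.1.1.1) fun z hz =>
          ⟨fun h => ⟨⟨(hs.perp_iff hz hx').1 h.1.2, (hs.perp_iff hz hy').1 h.2.1⟩, (hs.perp_iff hz hw').1 h.2.2⟩,
            fun h => ⟨⟨hz, (hs.perp_iff hz hx').2 h.1.1⟩, (hs.perp_iff hz hy').2 h.1.2,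
              (hs.perp_iff hz hw').2 h.2⟩⟩).trans ?_
    exact ncard_four hD hprim ht (h1 xC hx') ((hs.perp_iff hy' hx').1 hyx)
      ⟨(hs.perp_iff hw' hx').1 hwx, (hs.perp_iff hw' hy').1 hwy⟩
  · -- card_far
    intro a ha x hx y hy hxy
    obtain ⟨g, hg⟩ := move a ha
    obtain ⟨x', hx', rfl⟩ := back hg hx
    obtain ⟨y', hy', rfl⟩ := back hg hy
    obtain ⟨xC, rfl⟩ := lift hx'
    obtain ⟨yC, rfl⟩ := lift hy'
    have hnc : ¬ Commute (π xC) (π yC) := fun k => hxy (((hs.commute_iff hx' hy').2 k).map (MulAut.conj g))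
    rw [← hg, show g * d * g⁻¹ = MulAut.conj g d from rfl, both, ← himp, ← himp, ← himp,
      ← Set.image_inter (MulAut.conj g).injective, ← Set.image_inter (MulAut.conj g).injective,
      Set.ncard_image_of_injective _ (MulAut.conj g).injective]
    refine (hs.ncard_eq_of (S := perp (conjugatesOf d) d ∩ (perp (conjugatesOf d) (xC : G) ∩ perp (conjugatesOf d) (yC : G))) (S' := common D (π xC) (π yC)) (fun z hz => hz.1) (fun z hz => hz.1) fun z hz =>
        ⟨fun h => (PairThree.common_iff hnc).2
            ⟨h1 z hz, ((hs.perp_iff hz hx').1 h.2.1).2.2, ((hs.perp_iff hz hy').1 h.2.2).2.2⟩,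
          fun h => ⟨hz, (hs.perp_iff hz hx').2 ⟨h.1, h.2.1, h.2.2.1⟩, (hs.perp_iff hz hy').2
            ⟨h.1, fun k => hnc (k ▸ h.2.2.1), h.2.2.2⟩⟩⟩).trans ?_
    exact M22Sylow.mu22 hD hprim ht (h1 xC hx') (h1 yC hy') hnc
  · -- card_far_pair
    intro a ha x hx y hy w hw hyw
    obtain ⟨g, hg⟩ := move a ha
    obtain ⟨x', hx', rfl⟩ := back hg hx
    obtain ⟨y', hy', rfl⟩ := back hg hy.1
    obtain ⟨w', hw', rfl⟩ := back hg hw.1
    obtain ⟨xC, rfl⟩ := lift hx'
    obtain ⟨yC, rfl⟩ := lift hy'
    obtain ⟨wC, rfl⟩ := lift hw'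
    have unmove : ∀ {p q : G}, MulAut.conj g p ∈ perp (conjugatesOf d) (MulAut.conj g q) →
        p ∈ perp (conjugatesOf d) q := fun {p q} h => by
      rw [← himp] at h
      obtain ⟨u, hu, k⟩ := h
      rwa [← (MulAut.conj g).injective k]
    have hyx := (hs.perp_iff hy' hx').1 (unmove hy.2)
    have hwx := (hs.perp_iff hw' hx').1 (unmove hw.2)
    have hnc : ¬ Commute (π yC) (π wC) := fun k => hyw (((hs.commute_iff hy' hw').2 k).map (MulAut.conj g))
    rw [← hg, show g * d * g⁻¹ = MulAut.conj g d from rfl, both, both, ← himp, ← himp, ← himp, ← himp,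
      ← Set.image_inter (MulAut.conj g).injective, ← Set.image_inter (MulAut.conj g).injective,
      ← Set.image_inter (MulAut.conj g).injective, Set.ncard_image_of_injective _ (MulAut.conj g).injective]
    refine (hs.ncard_eq_of (S := perp (conjugatesOf d) d ∩ perp (conjugatesOf d) (xC : G) ∩ (perp (conjugatesOf d) (yC : G) ∩ perp (conjugatesOf d) (wC : G))) (S' := common D (π yC) (π wC) ∩ perp D (π xC)) (fun z hz => hz.1.1)
        (fun z hz => hz.1.1) fun z hz =>
        ⟨fun h => ⟨(PairThree.common_iff hnc).2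
              ⟨h1 z hz, ((hs.perp_iff hz hy').1 h.2.1).2.2, ((hs.perp_iff hz hw').1 h.2.2).2.2⟩,
            (hs.perp_iff hz hx').1 h.1.2⟩,
          fun h => ⟨⟨hz, (hs.perp_iff hz hx').2 h.2⟩,
            (hs.perp_iff hz hy').2 ⟨h.1.1, h.1.2.1, h.1.2.2.1⟩,
            (hs.perp_iff hz hw').2 ⟨h.1.1, fun k => hnc (k ▸ h.1.2.2.1), h.1.2.2.2⟩⟩⟩).trans ?_
    obtain ⟨p, hinj, hr, -⟩ := PairThree.exists_points_at hD hprim ht (h1 yC hy') (h1 wC hw') hnc (f := π xC)
      ((PairThree.common_iff hnc).2 ⟨h1 xC hx', hyx.2.2.symm, hwx.2.2.symm⟩)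
    rw [← hr, Set.ncard_range_of_injective hinj, Nat.card_eq_fintype_card, Fintype.card_fin]
  · -- six
    intro a ha x hx
    obtain ⟨g, hg⟩ := move a ha
    obtain ⟨x', hx', rfl⟩ := back hg hx
    obtain ⟨xC, rfl⟩ := lift hx'
    obtain ⟨l, hlen, hl, hc, hd6, -⟩ := hs.exists_six hx'
    refine ⟨(l.map C.subtype).map (MulAut.conj g), by simpa using hlen, fun h hh => ?_, fun h hh k hk => ?_, ?_⟩
    · simp only [List.map_map, List.mem_map] at hh
      obtain ⟨y, hy, rfl⟩ := hh
      rw [← hg, show g * d * g⁻¹ = MulAut.conj g d from rfl, both, ← himp, ← himp,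
        ← Set.image_inter (MulAut.conj g).injective]
      exact Set.mem_image_of_mem _ (hl y hy)
    · simp only [List.map_map, List.mem_map] at hh hk
      obtain ⟨y, hy, rfl⟩ := hh
      obtain ⟨z, hz, rfl⟩ := hk
      exact (hc y hy z hz).map (MulAut.conj g)
    · rw [← map_list_prod, ← map_mul, ← hd6]
      exact hg.symm
  · -- gen
    intro a ha
    obtain ⟨g, hg⟩ := move a ha
    rw [← hg, show g * d * g⁻¹ = MulAut.conj g d from rfl, ← himp, ← MulEquiv.coe_toMonoidHom,
      ← MonoidHom.map_closure, hs.closure_perp, hs.cent]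
    ext u
    rw [Subgroup.mem_map]
    constructor
    · intro hu
      refine ⟨(MulAut.conj g).symm u, Subgroup.mem_centralizer_singleton_iff.2 ?_, (MulAut.conj g).apply_symm_apply u⟩
      have := (show Commute u (MulAut.conj g d) from Subgroup.mem_centralizer_singleton_iff.1 hu).map
        (MulAut.conj g).symm
      rwa [MulEquiv.symm_apply_apply] at this
    · rintro ⟨v, hv, rfl⟩
      exact Subgroup.mem_centralizer_singleton_iff.2
        ((show Commute v d from Subgroup.mem_centralizer_singleton_iff.1 hv).map (MulAut.conj g)).eq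
  · -- invols
    intro a ha i hia hii hi
    obtain ⟨g, rfl⟩ := move a ha
    have e : ∀ u, g * (g⁻¹ * u * g) * g⁻¹ = u := fun u => by group
    have h1' : Commute (g⁻¹ * i * g) d := by
      have := hia.map (MulAut.conj g⁻¹)
      simpa [mul_assoc] using this
    have h2' : g⁻¹ * i * g * (g⁻¹ * i * g) = 1 := by
      rw [show g⁻¹ * i * g * (g⁻¹ * i * g) = g⁻¹ * (i * i) * g by group, hii]; group
    have h3' : g⁻¹ * i * g ≠ 1 := fun k => hi (by rw [← e i, k]; group)
    have tr : ∀ {p q : G}, q ∈ perp (conjugatesOf d) p →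
        g * q * g⁻¹ ∈ perp (conjugatesOf d) (g * p * g⁻¹) := fun {p q} hq =>
      ⟨hs.class_inv g q hq.1, fun k => hq.2.1 ((MulAut.conj g).injective k), hq.2.2.map (MulAut.conj g)⟩
    rcases hs.shape_invols _ h1' h2' h3' with h | ⟨p, hp, q, hq, h⟩ | ⟨p, hp, q, hq, r, hr, h⟩
    · exact Or.inl (e i ▸ hs.class_inv g _ h)
    · refine Or.inr (Or.inl ⟨_, hs.class_inv g p hp, _, tr hq, ?_⟩)
      rw [← e i, h]; group
    · refine Or.inr (Or.inr ⟨_, hs.class_inv g p hp, _, tr hq, _, ⟨tr hr.1, tr hr.2⟩, ?_⟩)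
      rw [← e i, h]; group

end CfsgLib.Fischer.M23Recog
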