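import Cfsg.Agent.Lib.Fischer.M23Recog.TypeM23
import Cfsg.Agent.Lib.Fischer.M22Unique.Iso

/-!
A group with an involution whose centralizer is a perfect double cover of a group of type M(22), the involution
not weakly closed in it, is of type M(23).
-/

set_option autoImplicit false
set_option linter.unusedSectionVars false

namespace CfsgLib.Fischer.M23Recog

open CfsgLib.Fischer

/-- The recognition of type M(23). -/
theorem main {G : Type*} [Group G] [Finite G] {d : G} (hd : orderOf d = 2)
    (hq : Cfsg.IsQuasisimple ↥(Subgroup.centralizer ({d} : Set G)))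
    [((Subgroup.zpowers d).subgroupOf (Subgroup.centralizer ({d} : Set G))).Normal]
    (E : Set (↥(Subgroup.centralizer ({d} : Set G)) ⧸ (Subgroup.zpowers d).subgroupOf (Subgroup.centralizer ({d} : Set G))))
    (hE : Cfsg.IsThreeTranspositionClass E) (hT : Cfsg.IsOfTypeM22 _ E)
    (hnwc : ∃ g : G, g * d * g⁻¹ ∈ Subgroup.centralizer ({d} : Set G) ∧ g * d * g⁻¹ ≠ d) :
    Cfsg.IsThreeTranspositionClass (conjugatesOf d) ∧ Cfsg.IsPrimitiveUnderConj (conjugatesOf d) ∧
      Cfsg.IsOfTypeM23 G (conjugatesOf d) := by
  revert E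
  set C := Subgroup.centralizer ({d} : Set G) with hC
  have hd1 : d ≠ 1 := by intro h; rw [h, orderOf_one] at hd; omega
  have hd2 : d * d = 1 := by rw [← pow_two, ← hd]; exact pow_orderOf_eq_one d
  set Z := (Subgroup.zpowers d).subgroupOf C
  intro E hE hT
  have hdC : d ∈ C := Subgroup.mem_centralizer_singleton_iff.2 rfl
  let dC : C := ⟨d, hdC⟩
  have hdcen : ∀ x : C, Commute dC x := fun x =>
    Subtype.ext (Subgroup.mem_centralizer_singleton_iff.1 x.2).symm
  have hdC2 : dC * dC = 1 := Subtype.ext hd2
  have hker : ∀ x : C, (QuotientGroup.mk' Z) x = 1 ↔ x = 1 ∨ x = dC := by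
    intro x
    rw [QuotientGroup.mk'_apply, QuotientGroup.eq_one_iff, Subgroup.mem_subgroupOf]
    constructor
    · intro h
      obtain ⟨n, hn⟩ := Subgroup.mem_zpowers_iff.1 h
      rcases Int.even_or_odd n with ⟨m, hm⟩ | ⟨m, hm⟩
      · left
        refine Subtype.ext ?_
        rw [← hn, hm, zpow_add, ← (Commute.refl d).mul_zpow, hd2, one_zpow]
        rfl
      · right
        refine Subtype.ext ?_
        rw [← hn, hm, zpow_add_one, two_mul, zpow_add, ← (Commute.refl d).mul_zpow, hd2, one_zpow, one_mul]
    · rintro (rfl | rfl)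
      · exact one_mem _
      · exact Subgroup.mem_zpowers d
  have hcenZ : Subgroup.center C = Z := by
    refine le_antisymm (fun x hx => ?_) (fun x hx => ?_)
    · have : (QuotientGroup.mk' Z) x ∈ Subgroup.center (C ⧸ Z) := Subgroup.mem_center_iff.2 fun p => by
        obtain ⟨p, rfl⟩ := QuotientGroup.mk'_surjective _ p
        rw [← map_mul, ← map_mul, Subgroup.mem_center_iff.1 hx p]
      rw [hT.1, Subgroup.mem_bot] at this
      exact (QuotientGroup.eq_one_iff x).1 this
    · rcases (hker x).1 ((QuotientGroup.eq_one_iff x).2 hx) with rfl | rfl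
      · exact one_mem _
      · exact Subgroup.mem_center_iff.2 fun p => (hdcen p).symm.eq
  haveI : IsSimpleGroup (C ⧸ Z) := by
    haveI := hq.2
    exact (QuotientGroup.quotientMulEquivOfEq hcenZ).symm.isSimpleGroup
  have hprim := TypeTwentyTwo.primitive_of_simple hE hT
  have hG := group_of_class hE
  have hcom : dC ∈ _root_.commutator C := by
    haveI := hq.1
    rw [show _root_.commutator C = ⊤ from Group.IsPerfect.commutator_eq_top]
    exact Subgroup.mem_top _
  have hπ : DoubleM22.IsDouble (QuotientGroup.mk' Z) dC :=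
    { surj := QuotientGroup.mk'_surjective _
      ker := hker
      central := hdcen
      sq := hdC2
      ne := fun h => hd1 (congrArg Subtype.val h)
      perfect := hcom }
  have hs : Setup d C (QuotientGroup.mk' Z) dC E :=
    ⟨hC, rfl, hπ, hG, hprim, hT, hnwc⟩
  obtain ⟨e, he⟩ := M22Unique.exists_equiv hG hprim hT
  have charts := exists_charts hs e he
  have hdT : d ∈ conjugatesOf d := mem_conjugatesOf_self
  have hgrp := transpositionGroup hs.shape hdT
  exact ⟨⟨hgrp.1, ⟨d, hdT, rfl⟩, hgrp.2.2⟩, primitive hs.shape charts hdT, hs.typeM23 charts⟩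

end CfsgLib.Fischer.M23Recog
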