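import Cfsg.Agent.Lib.Fischer.M23Recog.Count
import Cfsg.Agent.Lib.Fischer.M23Unique.Eight
import Cfsg.Agent.Lib.ClassicalForms.Ortho.POmega

/-!
The common neighbours of two members that do not commute generate a simple orthogonal group in seven dimensions.
-/

set_option autoImplicit false
set_option linter.unusedSectionVars false
set_option linter.constructorNameAsVariable false

namespace CfsgLib.Fischer.M23Recog

open CfsgLib.Fischer
open CfsgLib.SporRecognition.CosetCert CfsgLib.SporRecognition.FischerAut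
open CfsgLib.SporRecognition.Cert
open CfsgLib.SporRecognition.FischerAut.F22 (of8)
open Cert
open Cfsg.Spor.Fi22 (Gen)
open Cfsg.Agent.S1686 (P8)

local notation "σ₀" => Fi22Conf.σ
local notation "τ₀" => Fi22Conf.τ
local notation "Tab" => Tabled Fi22Conf.τ Fi22Conf.σ

theorem evalW_congr {A : Type*} [Group A] {α : Type*} (f g : α → A) (w : List (α × Bool))
    (h : ∀ p ∈ w, f p.1 = g p.1) : evalW f w = evalW g w := by
  simp only [evalW_eq_prod]
  congr 1
  exact List.map_congr_left fun p hp => by rw [h p hp]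

theorem W8core_ne {w : List (Gen × Bool)} (hw : w ∈ CfsgLib.SporRecognition.Fi22Omega.W8core) :
    ∀ p ∈ w, p.1 ≠ Gen.a := fun p hp => by
  have h := (List.mem_filter.1 hw).2
  simpa using List.all_eq_true.1 h p hp

theorem W8core_rel : ∀ w ∈ CfsgLib.SporRecognition.Fi22Omega.W8core,
    evalW (fun x => (PresentedGroup.of x : F22)) w = 1 := fun w hw =>
  Fi22Conf.relW_one w
    ((show ∀ w ∈ CfsgLib.SporRecognition.Fi22Omega.W8core, w ∈ Fi22U.relW by decide +kernel) w hw)

theorem W8core_mirror : ∀ w ∈ CfsgLib.SporRecognition.Fi22Omega.W8core,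
    evalW (fun x => (PresentedGroup.of (mirrorNode x) : F22)) w = 1 := by
  intro w hw
  have h : evalW (fun x => (PresentedGroup.of x : F22)) (w.map fun p => (mirrorNode p.1, p.2)) =
      evalW (fun x => (PresentedGroup.of x : F22)) [] := by
    refine eq_of_trace Fi22Conf.base.inj _ _ fun u hu => ?_
    exact Nat.eq_of_beq_eq_true (List.all_eq_true.1 (allBelow_spec mirrorRel u hu) w hw)
  simp only [evalW_eq_prod, List.map_map, List.map_nil, List.prod_nil] at h ⊢
  exact h

theorem p8_simple : IsSimpleGroup P8 := by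
  obtain ⟨e⟩ := CfsgLib.Fischer.M23Unique.p8_iso
  haveI := CfsgLib.ClassicalForms.isSimpleGroup_pOmega_odd (F := ZMod 3) (by decide) 3 (le_refl _)
  exact e.isSimpleGroup

variable {G : Type*} [Group G] [Finite G] {T : Set G}

/-- All the common neighbours form the set `S`. -/
theorem image_eq (hS : Shape T) {z b f : G} (hb : b ∈ T) (hf : f ∈ both T z b) (c : Chart T z)
    (hcf : c.ψ f = q6) {K S : Nat} (hK : c.ψ '' (both T z b ∩ perp T f) = pts K)
    (hKeq : allBelow 12 3510 (fun u => bif inSet S u && Nat.beq (w6 u) u && !(Nat.beq u 6) then inSet K u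
      else !(inSet K u)) = true)
    (h6 : inSet S 6 = true)
    (hgood : ∃ x ∈ both T z b, c.ψ x ∈ pts S ∧ σ₀ (τ₀ q6) (c.ψ x) ≠ c.ψ x)
    {ts : List (Nat → Nat)} {lab root rk via src : Nat → Nat}
    (hts : ∀ t ∈ ts, ∃ v, Tab v t ∧ v ∈ pts K)
    (hT : allBelow 12 3510 (nodeStep ts (fun u => inSet S u && !(Nat.beq (w6 u) u)) lab root rk via src 1 3510)
      = true)
    {ns : List (Nat → Nat)} {lab₁ root₁ rk₁ via₁ src₁ : Nat → Nat}
    (hns : ∀ t ∈ ns, ∃ v, Tab v t ∧ v ∈ pts S)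
    (hcl : allBelow 12 3510 (closedStep S ns) = true)
    (hroot₁ : root₁ 0 = 6)
    (hSf : allBelow 12 3510 (nodeStep ns (inSet S) lab₁ root₁ rk₁ via₁ src₁ 1 3510) = true)
    {lab₂ root₂ rk₂ via₂ src₂ : Nat → Nat} {w0 : Nat} (hw0 : root₂ 0 = w0)
    (hw0' : (Nat.beq (w6 w0) w0 && !(inSet S w0)) = true)
    (hRf : allBelow 12 3510 (nodeStep ns (fun u => !(inSet S u)) lab₂ root₂ rk₂ via₂ src₂ 1 3510) = true) :
    c.ψ '' both T z b = pts S := by
  let W : Set (Fin 3510) := c.ψ '' both T z b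
  have hW6 : q6 ∈ W := ⟨f, hf, hcf⟩
  have hclW : ∀ u ∈ W, ∀ v ∈ W, σ₀ (τ₀ u) v ∈ W := by
    rintro _ ⟨x, hx, rfl⟩ _ ⟨y, hy, rfl⟩
    obtain ⟨h1, h2⟩ := c.refl hS hx.1 hy.1
    refine ⟨x * y * x, ⟨h1, ?_⟩, h2⟩
    have := Chart.perp_of_commute hS hx.2.2.2 hy.2
    rwa [inv_self hS hx.1.1] at this
  have hKW : ∀ u : Fin 3510, u ∈ pts K ↔ u ∈ W ∧ u ∈ nb q6 := by
    intro u
    rw [← hK]
    constructor
    · rintro ⟨x, hx, rfl⟩
      exact ⟨⟨x, hx.1, rfl⟩, hcf ▸ (c.mem_perp_iff hS hf.1 hx.1.1).1 hx.2⟩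
    · rintro ⟨⟨x, hx, rfl⟩, hu⟩
      exact ⟨x, ⟨hx, (c.mem_perp_iff hS hf.1 hx.1).2 (hcf ▸ hu)⟩, rfl⟩
  have hKS : ∀ u : Fin 3510, u ∈ pts K ↔ u ∈ pts S ∧ u ∈ nb q6 := by
    intro u
    have h := allBelow_spec hKeq u u.2
    rw [mem_pts, mem_pts, mem_nb_tab tw6, show ((q6 : Fin 3510) : Nat) = 6 from rfl, ← Bool.and_eq_true]
    revert h
    generalize inSet S u = k₁
    generalize inSet K u = k₂
    generalize Nat.beq (w6 u) u = k₃
    generalize Nat.beq (u : Nat) 6 = k₄
    revert k₁ k₂ k₃ k₄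
    decide
  have hfix : ∀ u : Fin 3510, (Nat.beq (w6 u) u = true ↔ σ₀ (τ₀ q6) u = u) := fun u => (fix_iff_beq tw6 u).symm
  -- the far points of `S`
  have hfarW : ∀ u : Fin 3510, u ∈ pts S → σ₀ (τ₀ q6) u ≠ u → u ∈ W := by
    obtain ⟨x₀, hx₀, hx₀S, hx₀f⟩ := hgood
    have hr : ∀ u : Fin 3510, u ∈ pts S → σ₀ (τ₀ q6) u ≠ u →
        ∀ r : Fin 3510, (r : Nat) = root 0 → (u ∈ W ↔ r ∈ W) := by
      intro u hu huf
      have hcand : (inSet S u && !(Nat.beq (w6 u) u)) = true := by
        rw [Bool.and_eq_true, Bool.not_eq_true', ← Bool.not_eq_true, hfix]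
        exact ⟨hu, huf⟩
      refine forest_ind hT (fun u => ∀ r : Fin 3510, (r : Nat) = root 0 → (u ∈ W ↔ r ∈ W)) ?_ ?_ u hcand
      · intro l hl r hr r' hr'
        interval_cases l
        rw [show r = r' from Fin.ext (hr.trans hr'.symm)]
      · intro t ht s u hus _ _ ih r hr
        obtain ⟨v, hv, hvK⟩ := hts t ht
        have hvW : v ∈ W := ((hKW v).1 hvK).1
        have he : σ₀ (τ₀ v) s = u := Fin.ext ((hv s).trans hus.symm)
        rw [← ih r hr, ← he]
        exact ⟨fun h => sigma_sq v s ▸ hclW v hvW _ h, fun h => hclW v hvW s h⟩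
    intro u hu huf
    have hT0 : root 0 < 3510 := by
      have hcand : (inSet S (c.ψ x₀) && !(Nat.beq (w6 (c.ψ x₀)) (c.ψ x₀))) = true := by
        rw [Bool.and_eq_true, Bool.not_eq_true', ← Bool.not_eq_true, hfix]
        exact ⟨hx₀S, hx₀f⟩
      obtain ⟨r, hr⟩ := forest_ind hT (fun _ => ∃ r : Fin 3510, (r : Nat) = root 0) (fun l hl r hr => ⟨r, by
        interval_cases l; exact hr⟩) (fun _ _ _ _ _ _ _ h => h) (c.ψ x₀) hcand
      exact hr ▸ r.2
    exact ((hr u hu huf) ⟨root 0, hT0⟩ rfl).2 ((hr _ hx₀S hx₀f ⟨root 0, hT0⟩ rfl).1 ⟨x₀, hx₀, rfl⟩)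
  have hSW : pts S ⊆ W := by
    intro u hu
    by_cases h1 : σ₀ (τ₀ q6) u = u
    · by_cases h2 : u = q6
      · exact h2 ▸ hW6
      · exact ((hKW u).1 ((hKS u).2 ⟨hu, h1, h2⟩)).1
    · exact hfarW u hu h1
  refine Set.Subset.antisymm ?_ hSW
  -- nothing outside
  have hPr : ∀ u ∈ pts S, ∀ v ∈ W, v ∈ nb u → v ∈ pts S := by
    intro u hu
    refine forest_ind hSf (fun u => ∀ v ∈ W, v ∈ nb u → v ∈ pts S) ?_ ?_ u hu
    · intro l hl r hr v hv hvr
      interval_cases l
      obtain rfl : r = q6 := Fin.ext (hr.trans hroot₁)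
      exact ((hKS v).1 ((hKW v).2 ⟨hv, hvr⟩)).1
    · intro t ht s u hus _ _ ih v hv hvu
      obtain ⟨n, hn, hnS⟩ := hns t ht
      have he : σ₀ (τ₀ n) s = u := Fin.ext ((hn s).trans hus.symm)
      have h1 : σ₀ (τ₀ n) v ∈ pts S := by
        refine ih _ (hclW n (hSW hnS) v hv) ⟨?_, fun h => hvu.2 ?_⟩
        · have h2 := tau_apply Fi22Conf.base.heq (τ₀ n) u v
          rw [hvu.1] at h2
          rw [← he, sigma_sq] at h2
          exact h2
        · rw [← he, ← h, sigma_sq]
      have := of_closedStep hcl ht hn h1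
      rwa [sigma_sq] at this
  intro v hv
  by_contra hvS
  have hcand : (!(inSet S v)) = true := by
    rw [Bool.not_eq_true', ← Bool.not_eq_true]
    exact hvS
  obtain ⟨u, hu, huv⟩ : ∃ u ∈ pts S, v ∈ nb u := by
    refine forest_ind hRf (fun v => ∃ u ∈ pts S, v ∈ nb u) ?_ ?_ v hcand
    · intro l hl r hr
      interval_cases l
      rw [hw0] at hr
      rw [← hr, Bool.and_eq_true, hfix] at hw0'
      refine ⟨q6, h6, hw0'.1, fun h => ?_⟩
      rw [h, show ((q6 : Fin 3510) : Nat) = 6 from rfl, h6] at hw0'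
      exact absurd hw0'.2 (by simp)
    · intro t ht s v hvs _ _ ⟨u, hu, hus⟩
      obtain ⟨n, hn, hnS⟩ := hns t ht
      have he : σ₀ (τ₀ n) s = v := Fin.ext ((hn s).trans hvs.symm)
      refine ⟨σ₀ (τ₀ n) u, of_closedStep hcl ht hn hu, ?_, fun h => hus.2 ?_⟩
      · rw [← he, tau_apply Fi22Conf.base.heq, hus.1]
      · rw [← he] at h
        exact (σ₀ (τ₀ n)).injective h
  exact hvS (hPr u hu v hv huv)

/-- The model of the eight nodes. -/
theorem exists_hom (hS : Shape T) {z b : G} (hz : z ∈ T) (hb : b ∈ T) (hzb : ¬ Commute z b)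
    (c : Chart T z) {S : Nat} (hW : c.ψ '' both T z b = pts S)
    (m : Gen → Gen) (hm : ∀ w ∈ CfsgLib.SporRecognition.Fi22Omega.W8core,
      evalW (fun x => (PresentedGroup.of (m x) : F22)) w = 1)
    (hnode : ∀ x, x ≠ Gen.a → Fi22Conf.P (m x) ∈ pts S) (hd : Fi22Conf.P (m .d) = q6)
    {ns : List (Nat → Nat)} {lab root rk via src : Nat → Nat}
    (hns : ∀ t ∈ ns, ∃ x, x ≠ Gen.a ∧ Tab (Fi22Conf.P (m x)) t)
    (hroot : root 0 = 6)
    (hSf : allBelow 12 3510 (nodeStep ns (inSet S) lab root rk via src 1 3510) = true) :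
    ∃ ι : P8 →* G, Function.Injective ι ∧ ι.range = Subgroup.closure (both T z b) := by
  classical
  have hpre : ∀ x, x ≠ Gen.a → ∃ g ∈ both T z b, c.ψ g = Fi22Conf.P (m x) := fun x hx => by
    have h := hnode x hx
    rw [← hW] at h
    exact h
  choose! n hnm hnψ using hpre
  let N : Gen → G := fun x => if x = .a then 1 else n x
  let k : Gen → Subgroup.centralizer ({z} : Set G) := fun x =>
    ⟨N x, by
      by_cases hx : x = .a
      · simp only [N, if_pos hx]; exact one_mem _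
      · simp only [N, if_neg hx]; exact mem_centralizer (hnm x hx).1.2.2⟩
  have hrel : ∀ w ∈ CfsgLib.SporRecognition.Fi22Omega.W8, evalW N w = 1 := by
    intro w hw
    rcases List.mem_append.1 hw with hw | hw
    · have h1 : c.χ (evalW k w) = 1 := by
        rw [Cfsg.Agent.S1686.map_evalW, ← hm w hw]
        refine evalW_congr _ _ w fun p hp => ?_
        have hp' := W8core_ne hw p hp
        have e : (k p.1 : G) = n p.1 := if_neg hp'
        rw [c.val (k p.1) (e ▸ (hnm _ hp').1), e, hnψ _ hp', Fi22Conf.tau_P]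
      have h2 : evalW N w = ((evalW k w : Subgroup.centralizer ({z} : Set G)) : G) :=
        (Cfsg.Agent.S1686.map_evalW (Subgroup.centralizer ({z} : Set G)).subtype k w).symm
      rcases c.ker _ h1 with h3 | h3
      · exact h2.trans h3
      · exfalso
        have h4 : evalW N w ∈ Subgroup.centralizer ({b} : Set G) := by
          rw [evalW_eq_prod]
          refine Subgroup.list_prod_mem _ fun y hy => ?_
          obtain ⟨p, hp, rfl⟩ := List.mem_map.1 hy
          have h5 : N p.1 ∈ Subgroup.centralizer ({b} : Set G) := by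
            simp only [N, if_neg (W8core_ne hw p hp)]
            exact mem_centralizer (hnm _ (W8core_ne hw p hp)).2.2.2
          rcases p with ⟨x, _ | _⟩
          · exact inv_mem h5
          · exact h5
        rw [h2.trans h3] at h4
        exact hzb (commute_of_mem h4).symm
    · simp only [List.mem_cons, List.not_mem_nil, or_false] at hw
      rcases hw with rfl | rfl <;> simp [evalW_eq_prod, N]
  let ι : P8 →* G := PresentedGroup.toGroup (f := N) (Cfsg.Agent.S1686.lift_one_of_W8 N hrel)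
  have hι : ∀ x, x ≠ Gen.a → ι (of8 x) = n x := fun x hx => (PresentedGroup.toGroup.of _).trans (if_neg hx)
  have hinj : Function.Injective ι := by
    haveI := p8_simple
    rw [← MonoidHom.ker_eq_bot_iff]
    rcases (MonoidHom.normal_ker ι).eq_bot_or_eq_top with h | h
    · exact h
    exfalso
    have h1 : n .b = 1 := by
      rw [← hι .b (by decide)]
      exact MonoidHom.mem_ker.1 (by rw [h]; trivial)
    have h2 := hS.order _ (hnm Gen.b (by decide)).1.1
    rw [h1, orderOf_one] at h2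
    omega
  refine ⟨ι, hinj, le_antisymm ?_ ?_⟩
  · rw [MonoidHom.range_eq_map, ← PresentedGroup.closure_range_of, MonoidHom.map_closure, Subgroup.closure_le]
    rintro _ ⟨_, ⟨x, rfl⟩, rfl⟩
    rw [PresentedGroup.toGroup.of]
    by_cases hx : x = .a
    · simp only [N, if_pos hx]
      exact one_mem _
    · simp only [N, if_neg hx]
      exact Subgroup.subset_closure (hnm x hx)
  · rw [Subgroup.closure_le]
    intro y hy
    have hyS : c.ψ y ∈ pts S := hW ▸ ⟨y, hy, rfl⟩
    refine forest_ind hSf (fun u => ∀ y ∈ both T z b, c.ψ y = u → y ∈ ι.range) ?_ ?_ (c.ψ y) hyS y hy rfl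
    · intro l hl r hr y hy he
      interval_cases l
      have h1 : y = n .d := c.inj hy.1 (hnm _ (by decide)).1
        (he.trans ((Fin.ext (hr.trans hroot) : r = q6).trans (hd.symm.trans (hnψ _ (by decide)).symm)))
      exact ⟨of8 .d, (hι _ (by decide)).trans h1.symm⟩
    · intro t ht s u hus hs _ ih y hy he
      obtain ⟨x, hx, htx⟩ := hns t ht
      obtain ⟨y', hy', hys⟩ : ∃ y' ∈ both T z b, c.ψ y' = s := by
        have : s ∈ pts S := hs
        rw [← hW] at this
        exact this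
      obtain ⟨h1, h2⟩ := c.refl hS (hnm x hx).1 hy'.1
      have h3 : y = n x * y' * n x := c.inj hy.1 h1 (by
        rw [he, h2, hys, hnψ x hx]
        exact Fin.ext (hus.trans (htx s).symm))
      rw [h3, ← hι x hx]
      exact mul_mem (mul_mem ⟨_, rfl⟩ (ih y' hy' hys)) ⟨_, rfl⟩

/-- The structure at two members that do not commute. -/
theorem pair (hS : Shape T) (charts : ∀ z ∈ T, Nonempty (Chart T z)) {z b : G} (hz : z ∈ T) (hb : b ∈ T)
    (hzb : ¬ Commute z b) :
    (∃ ι : P8 →* G, Function.Injective ι ∧ ι.range = Subgroup.closure (both T z b)) ∧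
      (both T z b).ncard = 351 := by
  obtain ⟨f, hf⟩ := both_nonempty hS hz hb hzb
  obtain ⟨c, hcf, hK⟩ := standard hS charts hz hb hzb hf
  have hcard : ∀ {S : Nat}, ((List.range 3510).filter (inSet S)).length = 351 →
      c.ψ '' both T z b = pts S → (both T z b).ncard = 351 := fun hl hW => by
    rw [← ncard_pts_range hl, ← hW]
    exact (Set.InjOn.ncard_image fun x hx y hy e => c.inj hx.1 hy.1 e).symm
  rcases hK with hK | hK | hK
  · exfalso
    suffices h : ∃ x ∈ both T z b, c.ψ x ∈ pts SA ∧ σ₀ (τ₀ q6) (c.ψ x) ≠ c.ψ x by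
      obtain ⟨x, -, hx, -⟩ := h
      exact absurd (mem_pts.1 hx) (by simp [inSet, SA])
    refine exists_good hS hz hb hzb hf c hcf hK (g := q29) tw29 gAmem ysA 5 42 excA SA ?_ ?_
      excAok excAsum excAnodup (by decide +kernel)
    · simp only [ysA, List.forall_mem_cons, List.not_mem_nil, false_imp_iff, implies_true, and_true]
      refine ⟨⟨q8, rfl, tw8, ?_⟩, ⟨q22, rfl, tw22, ?_⟩, ⟨q36, rfl, tw36, ?_⟩, ⟨q71, rfl, tw71, ?_⟩,
        ⟨q95, rfl, tw95, ?_⟩, ⟨q281, rfl, tw281, ?_⟩, ⟨q351, rfl, tw351, ?_⟩, ⟨q362, rfl, tw362, ?_⟩,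
        ⟨q417, rfl, tw417, ?_⟩, ⟨q464, rfl, tw464, ?_⟩, ⟨q585, rfl, tw585, ?_⟩, ⟨q623, rfl, tw623, ?_⟩,
        ⟨q1390, rfl, tw1390, ?_⟩, ⟨q1713, rfl, tw1713, ?_⟩⟩ <;>
        exact ⟨mem_pts.2 (by decide +kernel), by decide +kernel, by decide⟩
    · simp only [ysA, List.forall_mem_cons, List.not_mem_nil, false_imp_iff, implies_true, and_true]
      exact ⟨(ncard_filter KAlength KAlisted _).trans FA8, (ncard_filter KAlength KAlisted _).trans FA22, (ncard_filter KAlength KAlisted _).trans FA36, (ncard_filter KAlength KAlisted _).trans FA71, (ncard_filter KAlength KAlisted _).trans FA95, (ncard_filter KAlength KAlisted _).trans FA281, (ncard_filter KAlength KAlisted _).trans FA351, (ncard_filter KAlength KAlisted _).trans FA362, (ncard_filter KAlength KAlisted _).trans FA417, (ncard_filter KAlength KAlisted _).trans FA464, (ncard_filter KAlength KAlisted _).trans FA585, (ncard_filter KAlength KAlisted _).trans FA623, (ncard_filter KAlength KAlisted _).trans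 FA1390, (ncard_filter KAlength KAlisted _).trans FA1713⟩
  · have hgood : ∃ x ∈ both T z b, c.ψ x ∈ pts SB ∧ σ₀ (τ₀ q6) (c.ψ x) ≠ c.ψ x := by
      refine exists_good hS hz hb hzb hf c hcf hK (g := q2) tw2 gBmem ysB 3 36 excB SB ?_ ?_
        excBok excBsum excBnodup (by decide +kernel)
      · simp only [ysB, List.forall_mem_cons, List.not_mem_nil, false_imp_iff, implies_true, and_true]
        refine ⟨⟨q8, rfl, tw8, ?_⟩, ⟨q22, rfl, tw22, ?_⟩, ⟨q71, rfl, tw71, ?_⟩, ⟨q87, rfl, tw87, ?_⟩,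
          ⟨q94, rfl, tw94, ?_⟩, ⟨q95, rfl, tw95, ?_⟩, ⟨q140, rfl, tw140, ?_⟩, ⟨q281, rfl, tw281, ?_⟩,
          ⟨q351, rfl, tw351, ?_⟩⟩ <;>
          exact ⟨mem_pts.2 (by decide +kernel), by decide +kernel, by decide⟩
      · simp only [ysB, List.forall_mem_cons, List.not_mem_nil, false_imp_iff, implies_true, and_true]
        exact ⟨(ncard_filter KBlength KBlisted _).trans FB8, (ncard_filter KBlength KBlisted _).trans FB22, (ncard_filter KBlength KBlisted _).trans FB71, (ncard_filter KBlength KBlisted _).trans FB87, (ncard_filter KBlength KBlisted _).trans FB94, (ncard_filter KBlength KBlisted _).trans FB95, (ncard_filter KBlength KBlisted _).trans FB140, (ncard_filter KBlength KBlisted _).trans FB281, (ncard_filter KBlength KBlisted _).trans FB351⟩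
    have hW : c.ψ '' both T z b = pts SB := by
      refine image_eq hS hb hf c hcf hK KBeq SBcentre hgood (ts := gensTB) ?_ nchkTB (ns := gensSB) ?_ SBclosed
        (by decide +kernel) nchkSB (w0 := 0) (by decide +kernel) RBroot nchkRB
      · simp only [gensTB, List.forall_mem_cons, List.not_mem_nil, false_imp_iff, implies_true, and_true]
        refine ⟨⟨q2, tw2, ?_⟩, ⟨q16, tw16, ?_⟩, ⟨q47, tw47, ?_⟩, ⟨q37, tw37, ?_⟩, ⟨q8, tw8, ?_⟩,
          ⟨q1173, tw1173, ?_⟩, ⟨q94, tw94, ?_⟩⟩ <;> exact mem_pts.2 (by decide +kernel)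
      · simp only [gensSB, List.forall_mem_cons, List.not_mem_nil, false_imp_iff, implies_true, and_true]
        refine ⟨⟨q2, tw2, ?_⟩, ⟨q4, tw4, ?_⟩, ⟨q6, tw6, ?_⟩, ⟨q38, tw38, ?_⟩, ⟨q87, tw87, ?_⟩,
          ⟨q140, tw140, ?_⟩, ⟨q19, tw19, ?_⟩, ⟨q64, tw64, ?_⟩⟩ <;> exact mem_pts.2 (by decide +kernel)
    refine ⟨exists_hom hS hz hb hzb c hW id W8core_rel ?_ (by decide +kernel) (ns := gensSB) ?_ (by decide +kernel)
      nchkSB, hcard (by decide +kernel) hW⟩
    · intro x hx
      cases x <;> first | exact absurd rfl hx | exact mem_pts.2 (by decide +kernel)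
    · simp only [gensSB, List.forall_mem_cons, List.not_mem_nil, false_imp_iff, implies_true, and_true]
      exact ⟨⟨.b, by decide, tw2⟩, ⟨.c, by decide, tw4⟩, ⟨.d, by decide, tw6⟩, ⟨.e, by decide, tw38⟩,
        ⟨.f, by decide, tw87⟩, ⟨.g, by decide, tw140⟩, ⟨.h, by decide, tw19⟩, ⟨.i, by decide, tw64⟩⟩
  · have hgood : ∃ x ∈ both T z b, c.ψ x ∈ pts SC ∧ σ₀ (τ₀ q6) (c.ψ x) ≠ c.ψ x := by
      refine exists_good hS hz hb hzb hf c hcf hK (g := q2) tw2 gCmem ysC 3 46 excC SC ?_ ?_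
        excCok excCsum excCnodup (by decide +kernel)
      · simp only [ysC, List.forall_mem_cons, List.not_mem_nil, false_imp_iff, implies_true, and_true]
        refine ⟨⟨q8, rfl, tw8, ?_⟩, ⟨q22, rfl, tw22, ?_⟩, ⟨q497, rfl, tw497, ?_⟩, ⟨q35, rfl, tw35, ?_⟩,
          ⟨q64, rfl, tw64, ?_⟩, ⟨q87, rfl, tw87, ?_⟩, ⟨q95, rfl, tw95, ?_⟩, ⟨q191, rfl, tw191, ?_⟩,
          ⟨q351, rfl, tw351, ?_⟩⟩ <;>
          exact ⟨mem_pts.2 (by decide +kernel), by decide +kernel, by decide⟩
      · simp only [ysC, List.forall_mem_cons, List.not_mem_nil, false_imp_iff, implies_true, and_true]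
        exact ⟨(ncard_filter KClength KClisted _).trans FC8, (ncard_filter KClength KClisted _).trans FC22, (ncard_filter KClength KClisted _).trans FC497, (ncard_filter KClength KClisted _).trans FC35, (ncard_filter KClength KClisted _).trans FC64, (ncard_filter KClength KClisted _).trans FC87, (ncard_filter KClength KClisted _).trans FC95, (ncard_filter KClength KClisted _).trans FC191, (ncard_filter KClength KClisted _).trans FC351⟩
    have hW : c.ψ '' both T z b = pts SC := by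
      refine image_eq hS hb hf c hcf hK KCeq SCcentre hgood (ts := gensTC) ?_ nchkTC (ns := gensSC) ?_ SCclosed
        (by decide +kernel) nchkSC (w0 := 41) (by decide +kernel) RCroot nchkRC
      · simp only [gensTC, List.forall_mem_cons, List.not_mem_nil, false_imp_iff, implies_true, and_true]
        refine ⟨⟨q2, tw2, ?_⟩, ⟨q16, tw16, ?_⟩, ⟨q47, tw47, ?_⟩, ⟨q37, tw37, ?_⟩, ⟨q95, tw95, ?_⟩,
          ⟨q80, tw80, ?_⟩, ⟨q351, tw351, ?_⟩⟩ <;> exact mem_pts.2 (by decide +kernel)
      · simp only [gensSC, List.forall_mem_cons, List.not_mem_nil, false_imp_iff, implies_true, and_true]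
        refine ⟨⟨q87, tw87, ?_⟩, ⟨q38, tw38, ?_⟩, ⟨q6, tw6, ?_⟩, ⟨q4, tw4, ?_⟩, ⟨q2, tw2, ?_⟩,
          ⟨q0, tw0, ?_⟩, ⟨q19, tw19, ?_⟩, ⟨q64, tw64, ?_⟩⟩ <;> exact mem_pts.2 (by decide +kernel)
    refine ⟨exists_hom hS hz hb hzb c hW mirrorNode W8core_mirror ?_ (by decide +kernel) (ns := gensSC) ?_
      (by decide +kernel) nchkSC, hcard (by decide +kernel) hW⟩
    · intro x hx
      cases x <;> first | exact absurd rfl hx | exact mem_pts.2 (by decide +kernel)
    · simp only [gensSC, List.forall_mem_cons, List.not_mem_nil, false_imp_iff, implies_true, and_true]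
      exact ⟨⟨.b, by decide, tw87⟩, ⟨.c, by decide, tw38⟩, ⟨.d, by decide, tw6⟩, ⟨.e, by decide, tw4⟩,
        ⟨.f, by decide, tw2⟩, ⟨.g, by decide, tw0⟩, ⟨.h, by decide, tw19⟩, ⟨.i, by decide, tw64⟩⟩

end CfsgLib.Fischer.M23Recog
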