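import Cfsg.Agent.Lib.Fischer.M23Recog.Chart
import Cfsg.Agent.Lib.Fischer.M23Recog.Cert.All
import Cfsg.Agent.Lib.Fischer.M23Recog.Cert.Far

/-!
Sets of points given by masks, induction along certified forests, and counts of fixed points.
-/

set_option autoImplicit false
set_option linter.unusedSectionVars false

namespace CfsgLib.Fischer.M23Recog

open CfsgLib.SporRecognition.CosetCert CfsgLib.SporRecognition.FischerAut
open CfsgLib.SporRecognition.Cert
open Cert

local notation "σ₀" => Fi22Conf.σ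
local notation "τ₀" => Fi22Conf.τ
local notation "Tab" => Tabled Fi22Conf.τ Fi22Conf.σ

/-- The points of a mask. -/
def pts (K : Nat) : Set (Fin 3510) := {u | inSet K u = true}

theorem mem_pts {K : Nat} {u : Fin 3510} : u ∈ pts K ↔ inSet K u = true := Iff.rfl

theorem nbeq_iff {a b : Nat} : Nat.beq a b = true ↔ a = b :=
  ⟨Nat.eq_of_beq_eq_true, fun h => h ▸ Nat.beq_refl a⟩

theorem fix_iff_beq {v : Fin 3510} {t : Nat → Nat} (ht : Tab v t) (u : Fin 3510) :
    σ₀ (τ₀ v) u = u ↔ Nat.beq (t u) u = true := by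
  rw [nbeq_iff, ← ht u, Fin.ext_iff]

theorem beq_coe {u v : Fin 3510} : Nat.beq u v = true ↔ u = v := by
  rw [nbeq_iff, Fin.ext_iff]

/-- The neighbours of a point. -/
def nb (v : Fin 3510) : Set (Fin 3510) := {u | σ₀ (τ₀ v) u = u ∧ u ≠ v}

theorem mem_nb_tab {v : Fin 3510} {t : Nat → Nat} (ht : Tab v t) (u : Fin 3510) :
    u ∈ nb v ↔ (Nat.beq (t u) u && !(Nat.beq u v)) = true := by
  rw [Bool.and_eq_true, Bool.not_eq_true', ← fix_iff_beq ht, ← Bool.not_eq_true, beq_coe]
  exact Iff.rfl

theorem fix_comm {u v : Fin 3510} : σ₀ (τ₀ u) v = v ↔ σ₀ (τ₀ v) u = u := by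
  rw [tau_move, tau_move]
  exact ⟨Commute.symm, Commute.symm⟩

theorem nb_comm {u v : Fin 3510} (h : v ∈ nb u) : u ∈ nb v := ⟨fix_comm.1 h.1, h.2.symm⟩

/-- The members are involutions. -/
theorem tau_sq (u : Fin 3510) : τ₀ u * τ₀ u = 1 := by
  obtain ⟨g, rfl⟩ := Fi22Conf.base.trans Fi22Conf.pt0 u
  rw [← tau_conj, Fi22Conf.tau_a]
  have h := Fi22Conf.relW_one [(.a, true), (.a, true)] (by decide +kernel)
  simp only [evalW_eq_prod, List.map_cons, List.map_nil, List.prod_cons, List.prod_nil, cond_true, mul_one] at h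
  rw [show ∀ a : F22, g * a * g⁻¹ * (g * a * g⁻¹) = g * (a * a) * g⁻¹ from fun a => by group, h]
  group

theorem sigma_sq (u v : Fin 3510) : σ₀ (τ₀ u) (σ₀ (τ₀ u) v) = v := by
  rw [← Equiv.Perm.mul_apply, ← map_mul, tau_sq, map_one, Equiv.Perm.one_apply]

/-- Induction along a certified forest. -/
theorem forest_ind {ts : List (Nat → Nat)} {cand : Nat → Bool} {lab root rk via src : Nat → Nat} {R : Nat}
    (hchk : allBelow 12 3510 (nodeStep ts cand lab root rk via src R 3510) = true)
    (P : Fin 3510 → Prop)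
    (hroot : ∀ l, l < R → ∀ r : Fin 3510, (r : Nat) = root l → P r)
    (hstep : ∀ t ∈ ts, ∀ s u : Fin 3510, (u : Nat) = t s → cand s = true → cand u = true → P s → P u)
    (u : Fin 3510) (hu : cand u = true) : P u := by
  suffices key : ∀ k, ∀ u : Fin 3510, rk u = k → cand u = true → P u from key _ u rfl hu
  intro k
  induction k using Nat.strongRecOn with
  | _ k ih =>
    intro u hk hu
    have h := allBelow_spec hchk u u.2
    rw [nodeStep, hu, cond_true, Bool.and_eq_true] at h
    obtain ⟨hl, h⟩ := h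
    cases h0 : Nat.beq (rk u) 0
    · rw [h0, cond_false] at h
      simp only [Bool.and_eq_true] at h
      obtain ⟨⟨⟨⟨hs, hc⟩, hlt⟩, -⟩, he⟩ := h
      have hs' : src u < 3510 := by simpa [Nat.blt_eq] using hs
      have hlt' : rk (src u) < rk u := by simpa [Nat.blt_eq] using hlt
      have he' := Nat.eq_of_beq_eq_true he
      have hp := ih _ (hk ▸ hlt') ⟨src u, hs'⟩ rfl hc
      rw [sel_eq] at he'
      by_cases hj : via u < ts.length
      · rw [List.getElem?_eq_getElem hj, Option.elim_some] at he'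
        exact hstep _ (List.getElem_mem hj) ⟨src u, hs'⟩ u he'.symm hc hu hp
      · rw [List.getElem?_eq_none (Nat.le_of_not_lt hj), Option.elim_none] at he'
        rw [he'] at hlt'
        exact absurd hlt' (lt_irrefl _)
    · rw [h0, cond_true] at h
      exact hroot _ (by simpa [Nat.blt_eq] using hl) u (Nat.eq_of_beq_eq_true h).symm

theorem of_closedStep {K : Nat} {ts : List (Nat → Nat)} (h : allBelow 12 3510 (closedStep K ts) = true)
    {t : Nat → Nat} (ht : t ∈ ts) {v : Fin 3510} (htv : Tab v t) {u : Fin 3510} (hu : u ∈ pts K) :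
    σ₀ (τ₀ v) u ∈ pts K := by
  have h1 := allBelow_spec h u u.2
  rw [closedStep, mem_pts.1 hu, cond_true] at h1
  rw [mem_pts, htv u]
  clear h
  induction ts with
  | nil => exact absurd ht List.not_mem_nil
  | cons a as ih =>
    have h2 : (inSet K (a u) && List.rec true (fun t _ ih => inSet K (t u) && ih) as) = true := h1
    rw [Bool.and_eq_true] at h2
    rcases List.mem_cons.1 ht with rfl | h3
    · exact h2.1
    · exact ih h3 h2.2

theorem mem_of_rec {l : List Nat} {u : Nat} (h : List.rec false (fun x _ ih => Nat.beq u x || ih) l = true) :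
    u ∈ l := by
  induction l with
  | nil => exact absurd h (by simp)
  | cons a as ih =>
    have h2 : (Nat.beq u a || List.rec false (fun x _ ih => Nat.beq u x || ih) as) = true := h
    rw [Bool.or_eq_true] at h2
    exact List.mem_cons.2 (h2.imp Nat.eq_of_beq_eq_true ih)

theorem mem_list {K : Nat} {l : List Nat} (h : allBelow 12 3510 (listedStep K l) = true) {u : Fin 3510}
    (hu : u ∈ pts K) : (u : Nat) ∈ l := by
  have h1 := allBelow_spec h u u.2
  rw [listedStep, mem_pts.1 hu, cond_true] at h1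
  exact mem_of_rec h1

theorem mem_of_cand {c : List ((Nat → Nat) × Bool × Nat)} {l : List Nat}
    (h : allBelow 12 3510 (candStep c l) = true) {u : Fin 3510} (hu : condStep c u = true) : (u : Nat) ∈ l := by
  have h1 := allBelow_spec h u u.2
  rw [candStep, hu, cond_true] at h1
  exact mem_of_rec h1

theorem ncard_pts_le {K : Nat} {l : List Nat} (h : allBelow 12 3510 (listedStep K l) = true) :
    (pts K).ncard ≤ l.length := by
  have h1 : Fin.val '' pts K ⊆ {n | n ∈ l} := by
    rintro _ ⟨u, hu, rfl⟩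
    exact mem_list h hu
  rw [← Set.ncard_image_of_injective _ Fin.val_injective]
  refine (Set.ncard_le_ncard h1 l.finite_toSet).trans ?_
  rw [show {n | n ∈ l} = (l.toFinset : Set Nat) by ext; simp, Set.ncard_coe_finset]
  exact l.toFinset_card_le

theorem ncard_pts {K : Nat} {l : List Nat}
    (hl : l.length = 126 ∧ l.Nodup ∧ (l.all fun x => inSet K x && Nat.blt x 3510) = true)
    (h : allBelow 12 3510 (listedStep K l) = true) : (pts K).ncard = 126 := by
  have h1 : Fin.val '' pts K = (l.toFinset : Set Nat) := by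
    ext n
    rw [List.coe_toFinset]
    refine ⟨?_, fun hn => ?_⟩
    · rintro ⟨u, hu, rfl⟩
      exact mem_list h hu
    · have h2 := List.all_eq_true.1 hl.2.2 n hn
      simp only [Bool.and_eq_true, Nat.blt_eq] at h2
      exact ⟨⟨n, h2.2⟩, h2.1, rfl⟩
  rw [← Set.ncard_image_of_injective _ Fin.val_injective, h1, Set.ncard_coe_finset,
    List.toFinset_card_of_nodup hl.2.1, hl.1]

theorem ncard_pts_range {K m : Nat} (h : ((List.range 3510).filter (inSet K)).length = m) :
    (pts K).ncard = m := by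
  have h1 : Fin.val '' pts K = (((List.range 3510).filter (inSet K)).toFinset : Set Nat) := by
    ext n
    simp only [List.coe_toFinset, List.mem_filter, List.mem_range, Set.mem_image]
    refine ⟨?_, fun hn => ⟨⟨n, hn.1⟩, hn.2, rfl⟩⟩
    rintro ⟨u, hu, rfl⟩
    exact ⟨u.2, hu⟩
  rw [← Set.ncard_image_of_injective _ Fin.val_injective, h1, Set.ncard_coe_finset,
    List.toFinset_card_of_nodup (List.nodup_range.filter _), h]

/-- A count of a filter is the count of a set. -/
theorem ncard_filter {K : Nat} {l : List Nat}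
    (hl : l.length = 126 ∧ l.Nodup ∧ (l.all fun x => inSet K x && Nat.blt x 3510) = true)
    (h : allBelow 12 3510 (listedStep K l) = true) (f : Nat → Bool) :
    {u : Fin 3510 | u ∈ pts K ∧ f u = true}.ncard = (l.filter f).length := by
  have h1 : Fin.val '' {u : Fin 3510 | u ∈ pts K ∧ f u = true} = ((l.filter f).toFinset : Set Nat) := by
    ext n
    rw [List.coe_toFinset]
    refine ⟨?_, fun hn => ?_⟩
    · rintro ⟨u, hu, rfl⟩
      exact List.mem_filter.2 ⟨mem_list h hu.1, hu.2⟩
    · have hn := List.mem_filter.1 hn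
      have h2 := List.all_eq_true.1 hl.2.2 n hn.1
      simp only [Bool.and_eq_true, Nat.blt_eq] at h2
      exact ⟨⟨n, h2.2⟩, ⟨h2.1, hn.2⟩, rfl⟩
  rw [← Set.ncard_image_of_injective _ Fin.val_injective, h1, Set.ncard_coe_finset,
    List.toFinset_card_of_nodup (hl.2.1.filter _)]

theorem fixCount_eq (ts : List ((Nat → Nat) × Nat)) (u : Nat) :
    fixCount ts u = ts.countP (fun x => Nat.beq (x.1 u) u && !(Nat.beq u x.2)) := by
  induction ts with
  | nil => rfl
  | cons a as ih =>
    rw [List.countP_cons, ← ih]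
    show Nat.add (bif Nat.beq (a.1 u) u && !(Nat.beq u a.2) then 1 else 0) (fixCount as u) = _
    cases (Nat.beq (a.1 u) u && !(Nat.beq u a.2)) <;> simp [Nat.add_comm]

/-- The tables of the centre fix pairs of points; far points are all equivalent. -/
theorem far_transitive {v : Fin 3510} (hv : σ₀ (τ₀ q6) v ≠ v) :
    ∃ g : F22, σ₀ g q6 = q6 ∧ σ₀ g q184 = v := by
  have hall : ∀ t ∈ gensFar, ∃ p : Fin 3510, Tab p t ∧ σ₀ (τ₀ p) q6 = q6 := by
    simp only [gensFar, List.mem_cons, List.not_mem_nil, or_false]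
    rintro t (rfl | rfl | rfl | rfl | rfl | rfl | rfl | rfl)
    · exact ⟨q0, tw0, (fix_iff_beq tw0 _).2 (by decide +kernel)⟩
    · exact ⟨q2, tw2, (fix_iff_beq tw2 _).2 (by decide +kernel)⟩
    · exact ⟨q87, tw87, (fix_iff_beq tw87 _).2 (by decide +kernel)⟩
    · exact ⟨q140, tw140, (fix_iff_beq tw140 _).2 (by decide +kernel)⟩
    · exact ⟨q64, tw64, (fix_iff_beq tw64 _).2 (by decide +kernel)⟩
    · exact ⟨q16, tw16, (fix_iff_beq tw16 _).2 (by decide +kernel)⟩
    · exact ⟨q8, tw8, (fix_iff_beq tw8 _).2 (by decide +kernel)⟩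
    · exact ⟨q17, tw17, (fix_iff_beq tw17 _).2 (by decide +kernel)⟩
  have hcand : candFar v = true := by
    show (!(Nat.beq (w6 v) v)) = true
    rw [Bool.not_eq_true', ← Bool.not_eq_true, ← fix_iff_beq tw6]
    exact hv
  refine forest_ind nchkFar (fun u => ∃ g : F22, σ₀ g q6 = q6 ∧ σ₀ g q184 = u) ?_ ?_ v hcand
  · intro l hl r hr
    interval_cases l
    refine ⟨1, by simp, ?_⟩
    rw [map_one, Equiv.Perm.one_apply]
    exact Fin.ext ((show (q184 : Nat) = rootFar 0 by decide +kernel).trans hr.symm)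
  · rintro t ht s u hu - - ⟨g, hg, hgs⟩
    obtain ⟨p, hp, hp6⟩ := hall t ht
    refine ⟨τ₀ p * g, by rw [map_mul, Equiv.Perm.mul_apply, hg, hp6], ?_⟩
    rw [map_mul, Equiv.Perm.mul_apply, hgs]
    exact Fin.ext ((hp s).trans hu.symm)

end CfsgLib.Fischer.M23Recog
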