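import Cfsg.Agent.Lib.Fischer.PairThree.OddReflection

/-!
The standard simple orthogonal group in seven dimensions over the field of three elements as a projective
reflection group.
-/

set_option autoImplicit false

namespace CfsgLib.Fischer.M23Recog

/-- Seven squares. -/
noncomputable def sevenSquares : QuadraticForm (ZMod 3) (Fin 7 → ZMod 3) :=
  QuadraticMap.weightedSumSquares (ZMod 3) (fun _ : Fin 7 => (1 : ZMod 3))

theorem sevenSquares_polar (x y : Fin 7 → ZMod 3) :
    QuadraticMap.polar (⇑sevenSquares) x y = 2 * ∑ i, x i * y i := by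
  simp only [QuadraticMap.polar, sevenSquares, QuadraticMap.weightedSumSquares_apply, one_smul, Pi.add_apply]
  rw [← Finset.sum_sub_distrib, ← Finset.sum_sub_distrib, Finset.mul_sum]
  exact Finset.sum_congr rfl fun i _ => by ring

theorem sevenSquares_nondeg : (QuadraticMap.polarBilin sevenSquares).Nondegenerate := by
  have key : ∀ x : Fin 7 → ZMod 3, (∀ y, QuadraticMap.polar (⇑sevenSquares) x y = 0) → x = 0 := fun x hx => by
    funext j
    have h := hx (Pi.single j 1)
    rw [sevenSquares_polar] at h
    simp [Pi.single_apply] at h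
    exact h.resolve_left (by decide)
  constructor
  · exact fun x hx => key x fun y => hx y
  · exact fun x hx => key x fun y => by rw [QuadraticMap.polar_comm]; exact hx y

theorem sevenSquares_det : Cfsg.polarGramDet (⇑sevenSquares) = -1 := by
  have h : (Matrix.of fun i j : Fin 7 => QuadraticMap.polar (⇑sevenSquares) (Pi.single i 1) (Pi.single j 1)) =
      Matrix.diagonal fun _ => (2 : ZMod 3) := by
    ext i j
    rw [Matrix.of_apply, sevenSquares_polar]
    by_cases hij : i = j
    · subst hij
      simp [Pi.single_apply]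
    · simp [Pi.single_apply, hij, Ne.symm hij]
  rw [Cfsg.polarGramDet, h, Matrix.det_diagonal]
  decide

/-- A group isomorphic to the standard orthogonal group is such a projective reflection group. -/
theorem projReflection_of_iso {X : Type*} [Group X]
    (e : X ≃* Cfsg.POmega (ZMod 3) (Cfsg.quadFormOdd 3 (ZMod 3))) :
    Cfsg.IsProjReflectionGroupModThree X 7 (-(1 : ZMod 3)) 1 := by
  obtain ⟨e₁⟩ := OddReflection.quotient_center_iso (c := (1 : ZMod 3)) sevenSquares_nondeg sevenSquares_det one_ne_zero
  obtain ⟨L, d, hd, hL⟩ := ReflectionsSpinor.POmegaField.classify_odd (m := 3) (by rw [Fintype.card_fin])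
    sevenSquares sevenSquares_nondeg
  obtain ⟨e₂⟩ := OddReflection.pomega_congr (f := Cfsg.quadFormOdd 3 (ZMod 3)) (g := ⇑sevenSquares) L hd
    (fun v => hL v)
  exact ⟨sevenSquares, sevenSquares_nondeg, sevenSquares_det, ⟨e.trans ((e₁.trans e₂).symm)⟩⟩

end CfsgLib.Fischer.M23Recog
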