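import Cfsg.Agent.Lib.InvChar.FischerProducts

/-!
A conjugation-invariant set of involutions in which every member sees the members commuting with it as the
transpositions of a double cover of a group of type M(22): the abstract local data used to recognise type M(23).
-/

set_option autoImplicit false
set_option linter.unusedSectionVars false

namespace CfsgLib.Fischer.M23Recog

open CfsgLib.Fischer

variable {G : Type*} [Group G]

/-- The neighbours common to two members. -/
def both (T : Set G) (a b : G) : Set G := perp T a ∩ perp T b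

/-- The local data. -/
structure Shape (T : Set G) : Prop where
  order : ∀ a ∈ T, orderOf a = 2
  inv : ∀ (g : G), ∀ a ∈ T, g * a * g⁻¹ ∈ T
  conj : ∀ a ∈ T, ∀ b ∈ T, ∃ g : G, g * a * g⁻¹ = b
  /-- Two neighbours of a member commute or have a product of order three. -/
  cube : ∀ a ∈ T, ∀ x ∈ perp T a, ∀ y ∈ perp T a, Commute x y ∨ (x * y) ^ 3 = 1
  /-- The centralizer of a member is transitive on its neighbours. -/
  trans : ∀ a ∈ T, ∀ x ∈ perp T a, ∀ y ∈ perp T a, ∃ g : G, Commute g a ∧ g * x * g⁻¹ = y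
  duad : ∀ a ∈ T, ∀ x ∈ perp T a, a * x ∉ T
  card_perp : ∀ a ∈ T, (perp T a).ncard = 3510
  card_pair : ∀ a ∈ T, ∀ x ∈ perp T a, (both T a x).ncard = 693
  card_triangle : ∀ a ∈ T, ∀ x ∈ perp T a, ∀ y ∈ both T a x, (both T a x ∩ perp T y).ncard = 180
  card_four : ∀ a ∈ T, ∀ x ∈ perp T a, ∀ y ∈ both T a x, ∀ z ∈ both T a x ∩ perp T y,
    (both T a x ∩ both T y z).ncard = 51
  card_far : ∀ a ∈ T, ∀ x ∈ perp T a, ∀ y ∈ perp T a, ¬ Commute x y →
    (perp T a ∩ both T x y).ncard = 126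
  card_far_pair : ∀ a ∈ T, ∀ x ∈ perp T a, ∀ y ∈ both T a x, ∀ z ∈ both T a x, ¬ Commute y z →
    (both T a x ∩ both T y z).ncard = 45
  /-- A member is a product of six commuting neighbours. -/
  six : ∀ a ∈ T, ∀ x ∈ perp T a, ∃ l : List G, l.length = 5 ∧ (∀ h ∈ l, h ∈ both T a x) ∧
    (∀ h ∈ l, ∀ k ∈ l, Commute h k) ∧ a = x * l.prod
  /-- The centralizer of a member is generated by its neighbours. -/
  gen : ∀ a ∈ T, Subgroup.centralizer ({a} : Set G) = Subgroup.closure (perp T a)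
  /-- The involutions centralizing a member. -/
  invols : ∀ a ∈ T, ∀ i : G, Commute i a → i * i = 1 → i ≠ 1 →
    i ∈ T ∨ (∃ x ∈ T, ∃ y ∈ perp T x, i = x * y) ∨
      ∃ x ∈ T, ∃ y ∈ perp T x, ∃ z ∈ both T x y, i = x * (y * z)

variable {T : Set G}

theorem mem_perp {a x : G} : x ∈ perp T a ↔ x ∈ T ∧ x ≠ a ∧ Commute a x := Iff.rfl

theorem mem_both {a b x : G} : x ∈ both T a b ↔ x ∈ perp T a ∧ x ∈ perp T b := Iff.rfl

theorem perp_symm {a x : G} (ha : a ∈ T) (hx : x ∈ perp T a) : a ∈ perp T x :=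
  ⟨ha, hx.2.1.symm, hx.2.2.symm⟩

theorem both_comm {a b : G} : both T a b = both T b a := Set.inter_comm _ _

theorem sq_one (hS : Shape T) {a : G} (ha : a ∈ T) : a * a = 1 := sq_of_orderOf (hS.order a ha)

theorem inv_self (hS : Shape T) {a : G} (ha : a ∈ T) : a⁻¹ = a := inv_of_orderOf (hS.order a ha)

theorem conj_self (hS : Shape T) {a b : G} (ha : a ∈ T) (hb : b ∈ T) : a * b * a ∈ T := by
  have := hS.inv a b hb
  rwa [inv_self hS ha] at this

theorem perp_conj (hS : Shape T) (g : G) {a x : G} (hx : x ∈ perp T a) : g * x * g⁻¹ ∈ perp T (g * a * g⁻¹) :=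
  ⟨hS.inv g x hx.1, fun h => hx.2.1 ((MulAut.conj g).injective h), hx.2.2.map (MulAut.conj g)⟩

theorem both_conj (hS : Shape T) (g : G) {a b x : G} (hx : x ∈ both T a b) :
    g * x * g⁻¹ ∈ both T (g * a * g⁻¹) (g * b * g⁻¹) :=
  ⟨perp_conj hS g hx.1, perp_conj hS g hx.2⟩

/-- A member and two neighbours with commuting neighbours: all three are pairwise neighbours. -/
theorem both_perp {a x y : G} (ha : a ∈ T) (hx : x ∈ perp T a) (hy : y ∈ both T a x) :
    a ∈ both T x y ∧ x ∈ both T a y :=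
  ⟨⟨perp_symm ha hx, perp_symm ha hy.1⟩, ⟨hx, perp_symm hx.1 hy.2⟩⟩

end CfsgLib.Fischer.M23Recog
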