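import Cfsg.Agent.Lib.Fischer.M23Recog.Points
import Cfsg.Agent.Lib.Fischer.M23Recog.Closure

/-!
Two members that do not commute, seen from one of them: the common neighbours next to a given one form one
of three sets of points.
-/

set_option autoImplicit false
set_option linter.unusedSectionVars false
set_option linter.constructorNameAsVariable false

namespace CfsgLib.Fischer.M23Recog

open CfsgLib.Fischer
open CfsgLib.SporRecognition.CosetCert CfsgLib.SporRecognition.FischerAut
open CfsgLib.SporRecognition.Cert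
open Cert

local notation "σ₀" => Fi22Conf.σ
local notation "τ₀" => Fi22Conf.τ
local notation "Tab" => Tabled Fi22Conf.τ Fi22Conf.σ

/-- Tables of the first target. -/
noncomputable def tabA : N7 → Nat → Nat
  | .o => w6 | .d => w2 | .c => w16 | .b => w47 | .e => w37 | .f => w281 | .h => w1530

theorem tabledA : ∀ x, Tab (tgtA x) (tabA x)
  | .o => tw6 | .d => tw2 | .c => tw16 | .b => tw47 | .e => tw37 | .f => tw281 | .h => tw1530

/-- Tables of the second target. -/
noncomputable def tabB : N7 → Nat → Nat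
  | .o => w6 | .d => w2 | .c => w16 | .b => w47 | .e => w37 | .f => w8 | .h => w1173

theorem tabledB : ∀ x, Tab (tgtB x) (tabB x)
  | .o => tw6 | .d => tw2 | .c => tw16 | .b => tw47 | .e => tw37 | .f => tw8 | .h => tw1173

/-- Tables of the third target. -/
noncomputable def tabC : N7 → Nat → Nat
  | .o => w6 | .d => w2 | .c => w16 | .b => w47 | .e => w37 | .f => w95 | .h => w80

theorem tabledC : ∀ x, Tab (tgtC x) (tabC x)
  | .o => tw6 | .d => tw2 | .c => tw16 | .b => tw47 | .e => tw37 | .f => tw95 | .h => tw80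

/-- The seven nodes in a list. -/
def nodes7 : List N7 := [.o, .d, .c, .b, .e, .f, .h]

theorem mem_nodes7 (x : N7) : x ∈ nodes7 := by cases x <;> decide

/-- The commuting pattern of the seventh member. -/
def pat7 : N7 → Bool
  | .b | .f => true
  | _ => false

theorem edge7_symm (x y : N7) : edge7 x y = edge7 y x := by cases x <;> cases y <;> rfl

theorem edgeA : (nodes7.all fun x => nodes7.all fun y =>
    x == y || (Nat.beq (tabA x (tgtA y)) (tgtA y) == !edge7 x y)) = true := by decide +kernel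

theorem patA : (nodes7.all fun x => x == N7.o ||
    (Nat.beq (tabA x 585) 585 == !pat7 x)) = true := by decide +kernel

theorem cond7 {tgt : N7 → Fin 3510} {tab : N7 → Nat → Nat} (htab : ∀ x, Tab (tgt x) (tab x)) {v : Fin 3510}
    (h : ∀ x, (σ₀ (τ₀ (tgt x)) v = v ↔ pat7 x = false) ∧ v ≠ tgt x) :
    condStep (nodes7.map fun x => (tab x, pat7 x, (tgt x : Nat))) v = true := by
  induction nodes7 with
  | nil => rfl
  | cons x xs ih =>
    rw [List.map_cons, condStep_cons, ih, Bool.and_true, Bool.and_eq_true]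
    refine ⟨?_, ?_⟩
    · have h1 := (fix_iff_beq (htab x) v).symm.trans (h x).1
      show (bif pat7 x then !(Nat.beq (tab x v) v) else Nat.beq (tab x v) v) = true
      revert h1
      generalize pat7 x = p
      generalize Nat.beq (tab x v) v = q
      revert p q
      decide
    · simp only [beq_false (fun e => (h x).2 (Fin.ext e)), Bool.not_false]

variable {G : Type*} [Group G] [Finite G] {T : Set G}

theorem both_nonempty (hS : Shape T) {z b : G} (hz : z ∈ T) (hb : b ∈ T) (hzb : ¬ Commute z b) :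
    ∃ f, f ∈ both T z b := by
  have h : b ∈ comp T z := by rw [comp_eq_self hS hz]; exact hb
  rcases h.2 with rfl | h | ⟨m, h1, h2⟩
  · exact absurd (Commute.refl _) hzb
  · exact absurd h.2.2 hzb
  · exact ⟨m, h1, perp_symm h1.1 h2⟩

/-- The common neighbours next to a given one are one of three sets. -/
theorem standard (hS : Shape T) (charts : ∀ z ∈ T, Nonempty (Chart T z)) {z b f : G}
    (hz : z ∈ T) (hb : b ∈ T) (hzb : ¬ Commute z b) (hf : f ∈ both T z b) :
    ∃ c : Chart T z, c.ψ f = q6 ∧ (c.ψ '' (both T z b ∩ perp T f) = pts KA ∨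
      c.ψ '' (both T z b ∩ perp T f) = pts KB ∨ c.ψ '' (both T z b ∩ perp T f) = pts KC) := by
  classical
  have hfz : z ∈ perp T f := perp_symm hz hf.1
  have hfb : b ∈ perp T f := perp_symm hb hf.2
  -- the chart at the neighbour
  obtain ⟨φ₀⟩ := charts f hf.1.1
  obtain ⟨g₁, hg₁⟩ := φ₀.exists_post z q6
  have hmove : σ₀ (τ₀ q6) ((φ₀.post g₁).ψ b) ≠ (φ₀.post g₁).ψ b := by
    rw [← hg₁, Ne, (φ₀.post g₁).fix_iff hS hfz hfb]
    exact hzb
  obtain ⟨g₂, hg₂, hg₂'⟩ := far_transitive hmove
  obtain ⟨φ, hφz, hφb⟩ : ∃ φ : Chart T f, φ.ψ z = q6 ∧ φ.ψ b = q184 := by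
    refine ⟨(φ₀.post g₁).post g₂⁻¹, ?_, ?_⟩
    · rw [Chart.post_apply, hg₁, map_inv, Equiv.Perm.inv_eq_iff_eq, hg₂]
    · rw [Chart.post_apply, map_inv, Equiv.Perm.inv_eq_iff_eq, hg₂']
  let N : Set G := both T z b ∩ perp T f
  have hNz : N ⊆ perp T z := fun x hx => hx.1.1
  have hNf : N ⊆ perp T f := fun x hx => hx.2
  have hmemN : ∀ x, x ∈ perp T f → (x ∈ N ↔ φ.ψ x ∈ pts KA) := by
    intro x hx
    have h1 := allBelow_spec KAeq (φ.ψ x) (φ.ψ x).2
    have e1 : x ∈ perp T z ↔ φ.ψ x ∈ nb q6 := by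
      rw [φ.mem_perp_iff hS hfz hx, hφz]; exact Iff.rfl
    have e2 : x ∈ perp T b ↔ φ.ψ x ∈ nb q184 := by
      rw [φ.mem_perp_iff hS hfb hx, hφb]; exact Iff.rfl
    rw [show x ∈ N ↔ (x ∈ perp T z ∧ x ∈ perp T b) from ⟨fun h => h.1, fun h => ⟨h, hx⟩⟩, e1, e2, mem_pts,
      mem_nb_tab tw6, mem_nb_tab tw184]
    rw [show ((q6 : Fin 3510) : Nat) = 6 from rfl, show ((q184 : Fin 3510) : Nat) = 184 from rfl,
      ← Bool.and_eq_true]
    revert h1
    generalize inSet KA (φ.ψ x) = k
    generalize Nat.beq (w6 (φ.ψ x)) (φ.ψ x) = k₁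
    generalize Nat.beq (φ.ψ x : Nat) 6 = k₂
    generalize Nat.beq (w184 (φ.ψ x)) (φ.ψ x) = k₃
    generalize Nat.beq (φ.ψ x : Nat) 184 = k₄
    revert k k₁ k₂ k₃ k₄
    decide
  have hsA : ∀ u : Fin 3510, u ∈ pts KA → ∃ x ∈ N, φ.ψ x = u := by
    intro u hu
    obtain ⟨x, hx, rfl⟩ := φ.surj u
    exact ⟨x, (hmemN x hx).2 hu, rfl⟩
  have hNcard : N.ncard = 126 := by
    have := hS.card_far f hf.1.1 z hfz b hfb hzb
    rw [show N = perp T f ∩ both T z b from Set.inter_comm _ _]
    exact this
  -- the six members and a seventh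
  have hs : ∀ x : N7, ∃ s : G, (x = .o → s = f) ∧ (x ≠ .o → s ∈ N ∧ φ.ψ s = tgtA x) := by
    intro x
    by_cases hx : x = .o
    · exact ⟨f, fun _ => rfl, fun h => absurd hx h⟩
    · obtain ⟨s, hs, he⟩ := hsA (tgtA x) (by
        cases x <;> first | exact absurd rfl hx | (rw [mem_pts]; decide +kernel))
      exact ⟨s, fun h => absurd h hx, fun _ => ⟨hs, he⟩⟩
  choose s hso hsx using hs
  have hsz : ∀ x, s x ∈ perp T z := by
    intro x
    by_cases hx : x = .o
    · rw [hso x hx]; exact hf.1
    · exact hNz (hsx x hx).1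
  obtain ⟨t, ht, hψt⟩ := hsA q585 (by rw [mem_pts]; decide +kernel)
  -- the configuration at z
  have hcomA : ∀ x y, x ≠ y → (Commute (s x) (s y) ↔ edge7 x y = false) := by
    intro x y hxy
    by_cases hx : x = .o
    · subst hx
      rw [hso _ rfl, show edge7 .o y = false by cases y <;> rfl]
      exact iff_of_true (hsx y (Ne.symm hxy)).1.2.2.2 rfl
    by_cases hy : y = .o
    · subst hy
      rw [hso .o rfl, show edge7 x .o = false by cases x <;> rfl]
      exact iff_of_true (hsx x hx).1.2.2.2.symm rfl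
    rw [← φ.fix_iff hS (hNf (hsx x hx).1) (hNf (hsx y hy).1), (hsx x hx).2, (hsx y hy).2, fix_iff_beq (tabledA x)]
    have h1 := List.all_eq_true.1 (List.all_eq_true.1 edgeA x (mem_nodes7 x)) y (mem_nodes7 y)
    rw [beq_false_of_ne hxy, Bool.false_or, beq_iff_eq] at h1
    rw [h1, Bool.not_eq_true']
  have hsinj : ∀ x y, x ≠ y → s x ≠ s y := by
    intro x y hxy e
    by_cases hx : x = .o
    · exact (hsx y (fun h => hxy (hx.trans h.symm))).1.2.2.1 (e.symm.trans (hso x hx))
    by_cases hy : y = .o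
    · exact (hsx x hx).1.2.2.1 (e.trans (hso y hy))
    have h1 : tgtA x = tgtA y := by rw [← (hsx x hx).2, ← (hsx y hy).2, e]
    revert h1
    cases x <;> cases y <;> first | exact absurd rfl hxy | decide +kernel
  have hcomT : ∀ x, (Commute (s x) t ↔ pat7 x = false) ∧ s x ≠ t := by
    intro x
    by_cases hx : x = .o
    · subst hx
      rw [hso _ rfl]
      exact ⟨iff_of_true ht.2.2.2 rfl, ht.2.2.1.symm⟩
    refine ⟨?_, fun e => ?_⟩
    · rw [← φ.fix_iff hS (hNf (hsx x hx).1) (hNf ht), (hsx x hx).2, hψt, fix_iff_beq (tabledA x)]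
      have h1 := List.all_eq_true.1 patA x (mem_nodes7 x)
      rw [beq_false_of_ne hx, Bool.false_or, beq_iff_eq] at h1
      rw [show ((q585 : Fin 3510) : Nat) = 585 from rfl, h1, Bool.not_eq_true']
    · have h1 : tgtA x = q585 := by rw [← (hsx x hx).2, ← hψt, e]
      revert h1
      cases x <;> decide +kernel
  obtain ⟨c₀⟩ := charts z hz
  obtain ⟨g₃, hg₃⟩ := c₀.exists_post f q6
  let c₁ := c₀.post g₃
  have hcfg : IsConfig σ₀ τ₀ edge7 [] fun x => c₁.ψ (s x) := by
    refine ⟨fun x y hxy e => hsinj x y hxy (c₁.inj (hsz x) (hsz y) e), fun x y hxy => ?_, fun w hw => absurd hw List.not_mem_nil⟩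
    rw [Ne, c₁.fix_iff hS (hsz x) (hsz y), hcomA x y hxy, Bool.not_eq_false]
  obtain ⟨tg, htg, g₄, hg₄⟩ := closed_root _ hcfg (by
    intro p hp
    rw [List.mem_singleton] at hp
    subst hp
    show c₁.ψ (s .o) = q6
    rw [hso _ rfl]
    exact hg₃)
  let c := c₁.post g₄⁻¹
  have hcs : ∀ x, c.ψ (s x) = tg x := fun x => by
    rw [show c.ψ (s x) = σ₀ g₄⁻¹ (c₁.ψ (s x)) from rfl, map_inv, Equiv.Perm.inv_eq_iff_eq]
    exact hg₄ x
  have hcf : c.ψ f = q6 := by
    rw [← hso .o rfl, hcs]
    simp only [targets, List.mem_cons, List.not_mem_nil, or_false] at htg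
    rcases htg with rfl | rfl | rfl <;> rfl
  have hcand : ∀ x, (σ₀ (τ₀ (tg x)) (c.ψ t) = c.ψ t ↔ pat7 x = false) ∧ c.ψ t ≠ tg x := by
    intro x
    rw [← hcs x, c.fix_iff hS (hsz x) (hNz ht)]
    exact ⟨(hcomT x).1, fun e => (hcomT x).2 (c.inj (hNz ht) (hsz x) e).symm⟩
  -- transfer along the forest
  have transfer : ∀ (M : Nat) (ts : List (Nat → Nat)), allBelow 12 3510 (closedStep M ts) = true →
      (∀ x, x ≠ N7.o → ∃ w ∈ ts, Tab (c.ψ (s x)) w) → (∃ w ∈ ts, Tab (c.ψ t) w) →
      (∀ x, x ≠ N7.o → c.ψ (s x) ∈ pts M) → c.ψ t ∈ pts M → c.ψ '' N ⊆ pts M := by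
    intro M ts hcl hwx hwt hmx hmt
    rintro _ ⟨y, hy, rfl⟩
    have hP := forest_ind nchkKA (fun u => ∀ y ∈ N, φ.ψ y = u → c.ψ y ∈ pts M) ?_ ?_ (φ.ψ y) ((hmemN y (hNf hy)).1 hy)
    · exact hP y hy rfl
    · intro l hl r hr y hy he
      have hmain : ∀ x, x ≠ N7.o → (r : Nat) = tgtA x → c.ψ y ∈ pts M := fun x hx h => by
        rw [φ.inj (hNf hy) (hNf (hsx x hx).1) (by rw [he, (hsx x hx).2]; exact Fin.ext h)]
        exact hmx x hx
      interval_cases l
      · exact hmain .d (by decide) (hr.trans (by decide +kernel))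
      · exact hmain .c (by decide) (hr.trans (by decide +kernel))
      · exact hmain .b (by decide) (hr.trans (by decide +kernel))
      · exact hmain .e (by decide) (hr.trans (by decide +kernel))
      · exact hmain .f (by decide) (hr.trans (by decide +kernel))
      · exact hmain .h (by decide) (hr.trans (by decide +kernel))
      · rw [φ.inj (hNf hy) (hNf ht) (by rw [he, hψt]; exact Fin.ext (hr.trans (by decide +kernel)))]
        exact hmt
    · intro w hw p q hq hp _ ih y hy he
      obtain ⟨a, haN, hta, w', hw', htw'⟩ : ∃ a ∈ N, Tab (φ.ψ a) w ∧ ∃ w' ∈ ts, Tab (c.ψ a) w' := by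
        have hsix : ∀ x, x ≠ N7.o → tabA x = w →
            ∃ a ∈ N, Tab (φ.ψ a) w ∧ ∃ w' ∈ ts, Tab (c.ψ a) w' := fun x hx h =>
          ⟨s x, (hsx x hx).1, by rw [(hsx x hx).2, ← h]; exact tabledA x, hwx x hx⟩
        simp only [gensKA, List.mem_cons, List.not_mem_nil, or_false] at hw
        rcases hw with rfl | rfl | rfl | rfl | rfl | rfl | rfl
        · exact hsix .d (by decide) rfl
        · exact hsix .c (by decide) rfl
        · exact hsix .b (by decide) rfl
        · exact hsix .e (by decide) rfl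
        · exact hsix .f (by decide) rfl
        · exact hsix .h (by decide) rfl
        · exact ⟨t, ht, by rw [hψt]; exact tw585, hwt⟩
      obtain ⟨p', hp', hpe⟩ := hsA p hp
      obtain ⟨h1, h2⟩ := φ.refl hS (hNf haN) (hNf hp')
      obtain ⟨h3, h4⟩ := c.refl hS (hNz haN) (hNz hp')
      have hye : y = a * p' * a := φ.inj (hNf hy) h1 (by
        rw [he, h2, hpe]
        exact Fin.ext (hq.trans (hta p).symm))
      rw [hye, h4]
      exact of_closedStep hcl hw' htw' (ih p' hp' hpe)
  have hinj : Set.InjOn c.ψ N := fun x hx y hy e => c.inj (hNz hx) (hNz hy) e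
  have hcardN : (c.ψ '' N).ncard = 126 := by rw [hinj.ncard_image, hNcard]
  have good : ∀ {K : Nat}, c.ψ '' N ⊆ pts K → (pts K).ncard = 126 → c.ψ '' N = pts K := fun h hK =>
    Set.eq_of_subset_of_ncard_le h (by rw [hK, hcardN])
  have bad : ∀ {M : Nat} {l : List Nat}, allBelow 12 3510 (listedStep M l) = true → l.length = 63 →
      ¬ c.ψ '' N ⊆ pts M := fun hl h63 h => by
    have h1 := Set.ncard_le_ncard h
    have h2 := ncard_pts_le hl
    omega
  refine ⟨c, hcf, ?_⟩
  simp only [targets, List.mem_cons, List.not_mem_nil, or_false] at htg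
  rcases htg with rfl | rfl | rfl
  · left
    have hv := mem_of_cand candA (cond7 tabledA hcand)
    simp only [List.mem_cons, List.not_mem_nil, or_false] at hv
    rcases hv with hv | hv | hv
    · have e : c.ψ t = q22 := Fin.ext hv
      have h := KAhas22
      simp only [Bool.and_eq_true] at h
      refine good (transfer _ _ KAclosed22 (fun x hx => ⟨_, ?_, hcs x ▸ tabledA x⟩)
        ⟨_, by simp, e ▸ tw22⟩ (fun x hx => ?_) ?_) (ncard_pts KAlength KAlisted)
      · cases x <;> simp [tabA] at hx ⊢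
      · rw [hcs, mem_pts]; cases x <;> first | exact absurd rfl hx | (simp only [tgtA]; tauto)
      · rw [e, mem_pts]; exact h.2
    · have e : c.ψ t = q370 := Fin.ext hv
      have h := MA370has
      simp only [Bool.and_eq_true] at h
      refine absurd (transfer _ _ MA370closed (fun x hx => ⟨_, ?_, hcs x ▸ tabledA x⟩)
        ⟨_, by simp, e ▸ tw370⟩ (fun x hx => ?_) ?_) (bad MA370listed MA370length)
      · cases x <;> simp [tabA] at hx ⊢
      · rw [hcs, mem_pts]; cases x <;> first | exact absurd rfl hx | (simp only [tgtA]; tauto)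
      · rw [e, mem_pts]; exact h.2
    · have e : c.ψ t = q585 := Fin.ext hv
      have h := KAhas585
      simp only [Bool.and_eq_true] at h
      refine good (transfer _ _ KAclosed585 (fun x hx => ⟨_, ?_, hcs x ▸ tabledA x⟩)
        ⟨_, by simp, e ▸ tw585⟩ (fun x hx => ?_) ?_) (ncard_pts KAlength KAlisted)
      · cases x <;> simp [tabA] at hx ⊢
      · rw [hcs, mem_pts]; cases x <;> first | exact absurd rfl hx | (simp only [tgtA]; tauto)
      · rw [e, mem_pts]; exact h.2
  · right; left
    have hv := mem_of_cand candB (cond7 tabledB hcand)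
    simp only [List.mem_cons, List.not_mem_nil, or_false] at hv
    rcases hv with hv | hv | hv
    · have e : c.ψ t = q94 := Fin.ext hv
      have h := KBhas94
      simp only [Bool.and_eq_true] at h
      refine good (transfer _ _ KBclosed94 (fun x hx => ⟨_, ?_, hcs x ▸ tabledB x⟩)
        ⟨_, by simp, e ▸ tw94⟩ (fun x hx => ?_) ?_) (ncard_pts KBlength KBlisted)
      · cases x <;> simp [tabB] at hx ⊢
      · rw [hcs, mem_pts]; cases x <;> first | exact absurd rfl hx | (simp only [tgtB]; tauto)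
      · rw [e, mem_pts]; exact h.2
    · have e : c.ψ t = q351 := Fin.ext hv
      have h := KBhas351
      simp only [Bool.and_eq_true] at h
      refine good (transfer _ _ KBclosed351 (fun x hx => ⟨_, ?_, hcs x ▸ tabledB x⟩)
        ⟨_, by simp, e ▸ tw351⟩ (fun x hx => ?_) ?_) (ncard_pts KBlength KBlisted)
      · cases x <;> simp [tabB] at hx ⊢
      · rw [hcs, mem_pts]; cases x <;> first | exact absurd rfl hx | (simp only [tgtB]; tauto)
      · rw [e, mem_pts]; exact h.2
    · have e : c.ψ t = q370 := Fin.ext hv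
      have h := MB370has
      simp only [Bool.and_eq_true] at h
      refine absurd (transfer _ _ MB370closed (fun x hx => ⟨_, ?_, hcs x ▸ tabledB x⟩)
        ⟨_, by simp, e ▸ tw370⟩ (fun x hx => ?_) ?_) (bad MB370listed MB370length)
      · cases x <;> simp [tabB] at hx ⊢
      · rw [hcs, mem_pts]; cases x <;> first | exact absurd rfl hx | (simp only [tgtB]; tauto)
      · rw [e, mem_pts]; exact h.2
  · right; right
    have hv := mem_of_cand candC (cond7 tabledC hcand)
    simp only [List.mem_cons, List.not_mem_nil, or_false] at hv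
    rcases hv with hv | hv | hv
    · have e : c.ψ t = q351 := Fin.ext hv
      have h := KChas351
      simp only [Bool.and_eq_true] at h
      refine good (transfer _ _ KCclosed351 (fun x hx => ⟨_, ?_, hcs x ▸ tabledC x⟩)
        ⟨_, by simp, e ▸ tw351⟩ (fun x hx => ?_) ?_) (ncard_pts KClength KClisted)
      · cases x <;> simp [tabC] at hx ⊢
      · rw [hcs, mem_pts]; cases x <;> first | exact absurd rfl hx | (simp only [tgtC]; tauto)
      · rw [e, mem_pts]; exact h.2
    · have e : c.ψ t = q370 := Fin.ext hv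
      have h := MC370has
      simp only [Bool.and_eq_true] at h
      refine absurd (transfer _ _ MC370closed (fun x hx => ⟨_, ?_, hcs x ▸ tabledC x⟩)
        ⟨_, by simp, e ▸ tw370⟩ (fun x hx => ?_) ?_) (bad MC370listed MC370length)
      · cases x <;> simp [tabC] at hx ⊢
      · rw [hcs, mem_pts]; cases x <;> first | exact absurd rfl hx | (simp only [tgtC]; tauto)
      · rw [e, mem_pts]; exact h.2
    · have e : c.ψ t = q1098 := Fin.ext hv
      have h := KChas1098
      simp only [Bool.and_eq_true] at h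
      refine good (transfer _ _ KCclosed1098 (fun x hx => ⟨_, ?_, hcs x ▸ tabledC x⟩)
        ⟨_, by simp, e ▸ tw1098⟩ (fun x hx => ?_) ?_) (ncard_pts KClength KClisted)
      · cases x <;> simp [tabC] at hx ⊢
      · rw [hcs, mem_pts]; cases x <;> first | exact absurd rfl hx | (simp only [tgtC]; tauto)
      · rw [e, mem_pts]; exact h.2

end CfsgLib.Fischer.M23Recog
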