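import Cfsg.Agent.Lib.Fischer.M23Recog.Model
import Cfsg.Agent.Lib.Fischer.M23Recog.Refl
import Cfsg.Agent.Lib.Fischer.TypeTwentyThreeLocal

/-!
The class of a member with the local data is primitive and of type M(23).
-/

set_option autoImplicit false
set_option linter.unusedSectionVars false

namespace CfsgLib.Fischer.M23Recog

open CfsgLib.Fischer
open Cfsg.Agent.S1686 (P8)

theorem three_of_not_commute {G : Type*} [Group G] {T : Set G} (h : Cfsg.IsThreeTranspositionSet T) {a b : G}
    (ha : a ∈ T) (hb : b ∈ T) (hab : ¬ Commute a b) : a * b * a = b * a * b := by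
  have ha2 : a * a = 1 := sq_of_orderOf (h.1 a ha)
  have hb2 : b * b = 1 := sq_of_orderOf (h.1 b hb)
  rcases h.2 a ha b hb with h2 | h2
  · refine absurd ?_ hab
    show a * b = b * a
    calc a * b = (a * b) * ((a * b) * (b⁻¹ * a⁻¹)) := by group
      _ = (a * b) ^ 2 * (b⁻¹ * a⁻¹) := by rw [pow_two]; group
      _ = b * a := by rw [h2, one_mul, inv_eq_of_mul_eq_one_right hb2, inv_eq_of_mul_eq_one_right ha2]
  · calc a * b * a = (a * b) ^ 3 * (b⁻¹ * a⁻¹ * b⁻¹) := by rw [pow_three]; group
      _ = b * a * b := by rw [h2, one_mul, inv_eq_of_mul_eq_one_right hb2, inv_eq_of_mul_eq_one_right ha2]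

variable {G : Type*} [Group G] [Finite G] {T : Set G}

/-- Conjugation on the class is primitive. -/
theorem primitive (hS : Shape T) (charts : ∀ z ∈ T, Nonempty (Chart T z)) {d : G} (hd : d ∈ T) :
    Cfsg.IsPrimitiveUnderConj T := by
  classical
  obtain ⟨x₀, hx₀⟩ := Set.nonempty_of_ncard_ne_zero (s := perp T d) (by rw [hS.card_perp d hd]; decide)
  refine ⟨hS.conj, ⟨d, hd, x₀, hx₀.1, hx₀.2.1.symm⟩, fun B hBT hB => ?_⟩
  by_contra hcon
  push Not at hcon
  obtain ⟨hns, hBne⟩ := hcon
  obtain ⟨p, hp, q, hq, hpq⟩ := hns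
  have hfix : ∀ g b, b ∈ B → Commute g b → ∀ x ∈ B, g * x * g⁻¹ ∈ B := by
    intro g b hb hgb x hx
    rcases hB g with h | h
    · exact h.subset ⟨x, hx, rfl⟩
    · exact absurd (show g * b * g⁻¹ ∈ B by rwa [hgb.eq, mul_inv_cancel_right])
        (Set.disjoint_left.1 h ⟨b, hb, rfl⟩)
  have hperp : ∀ a ∈ B, ∀ b ∈ B, b ∈ perp T a → perp T a ⊆ B := by
    intro a ha b hb hab y hy
    obtain ⟨g, hg, rfl⟩ := hS.trans a (hBT ha) b hab y hy
    exact hfix g a ha hg b hb
  obtain ⟨a, ha, b, hb, hab⟩ : ∃ a ∈ B, ∃ b ∈ B, b ∈ perp T a := by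
    by_cases hc : Commute p q
    · exact ⟨p, hp, q, hq, hBT hq, hpq.symm, hc⟩
    have hpT := hBT hp
    have hqT := hBT hq
    have hcard := (pair hS charts hpT hqT hc).2
    obtain ⟨w, hw, hwq⟩ : ∃ w ∈ perp T p, w ∉ perp T q := by
      by_contra h
      push Not at h
      have h1 := Set.ncard_le_ncard (show perp T p ⊆ both T p q from fun y hy => ⟨hy, h y hy⟩)
      rw [hS.card_perp p hpT, hcard] at h1
      omega
    obtain ⟨w', hw', hwq'⟩ : ∃ w' ∈ both T p w, w' ∉ perp T q := by
      by_contra h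
      push Not at h
      have h1 := Set.ncard_le_ncard (show both T p w ⊆ both T p q from fun y hy => ⟨hy.1, h y hy⟩)
      rw [hS.card_pair p hpT w hw, hcard] at h1
      omega
    have hset := transpositionSet hS hpT
    have hnc : ∀ y ∈ perp T p, y ∉ perp T q → ¬ Commute y q := fun y hy hyq k =>
      hyq ⟨hy.1, fun e => hc (e ▸ hy.2.2), k.symm⟩
    have hmem : ∀ y ∈ perp T p, y ∉ perp T q → q * y * q ∈ B := fun y hy hyq => by
      rw [← three_of_not_commute hset hy.1 hqT (hnc y hy hyq)]
      have := hfix y p hp hy.2.2.symm q hq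
      rwa [inv_self hS hy.1] at this
    refine ⟨_, hmem w hw hwq, _, hmem w' hw'.1 hwq', ?_⟩
    have h := perp_conj hS q hw'.2
    rwa [inv_self hS hqT] at h
  refine hBne (Set.Subset.antisymm hBT fun y hy => ?_)
  have hall := hperp a ha b hb hab
  rw [← comp_eq_self hS (hBT ha)] at hy
  rcases hy.2 with rfl | h | ⟨m, hm, h⟩
  · exact ha
  · exact hall h
  · exact hperp m (hall hm) a ha (perp_symm (hBT ha) hm) h

section
variable {Q : Type*} [Group Q] [Finite Q] {d : G} {D : Set Q} {C : Subgroup G} {π : C →* Q} {dC : C}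
variable (hs : Setup d C π dC D)
include hs

/-- The class is of type M(23). -/
theorem Setup.typeM23 (charts : ∀ z ∈ conjugatesOf d, Nonempty (Chart (conjugatesOf d) z)) :
    Cfsg.IsOfTypeM23 G (conjugatesOf d) := by
  classical
  have hS := hs.shape
  have hdT : d ∈ conjugatesOf d := mem_conjugatesOf_self
  have htop := closure_eq_top hS hdT
  have hnc : ∃ b ∈ conjugatesOf d, ¬ Commute d b := by
    by_contra h
    push Not at h
    obtain ⟨g, -, hg⟩ := hs.nwc
    have hcen : Subgroup.centralizer ({d} : Set G) = ⊤ := by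
      rw [eq_top_iff, ← htop, Subgroup.closure_le]
      exact fun y hy => mem_centralizer (h y hy)
    have hgd : Commute d g := commute_of_mem (hcen ▸ Subgroup.mem_top g)
    exact hg (by rw [← hgd.eq, mul_inv_cancel_right])
  obtain ⟨b, hb, hdb⟩ := hnc
  refine ⟨?_, d, hdT, b, hb, hdb, ?_, ?_⟩
  · rw [eq_bot_iff]
    intro x hx
    have hxc : ∀ y, Commute y x := fun y => Subgroup.mem_center_iff.1 hx y
    have hxC : x ∈ C := (hs.mem_iff).2 (hxc d)
    have h1 : π ⟨x, hxC⟩ ∈ Subgroup.center Q := Subgroup.mem_center_iff.2 fun y => by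
      obtain ⟨y, rfl⟩ := hs.double.surj y
      rw [← map_mul, ← map_mul]
      exact congrArg π (Subtype.ext (hxc y).eq)
    rw [hs.type22.1, Subgroup.mem_bot] at h1
    rcases (hs.double.ker _).1 h1 with h2 | h2
    · exact Subgroup.mem_bot.2 (congrArg Subtype.val h2)
    · exact absurd ((congrArg Subtype.val h2).trans hs.coe ▸ (hxc b).symm) hdb
  · -- the local quotient
    show Cfsg.IsOfTypeM22
      (↥(Subgroup.closure (perp (conjugatesOf d) d)) ⧸ Subgroup.center ↥(Subgroup.closure (perp (conjugatesOf d) d)))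
      ((QuotientGroup.mk : ↥(Subgroup.closure (perp (conjugatesOf d) d)) → _) ''
        {x : ↥(Subgroup.closure (perp (conjugatesOf d) d)) | (x : G) ∈ perp (conjugatesOf d) d})
    rw [hs.closure_perp]
    have hker : Subgroup.center C = π.ker := by
      refine le_antisymm (fun x hx => ?_) (fun x hx => ?_)
      · have : π x ∈ Subgroup.center Q := Subgroup.mem_center_iff.2 fun y => by
          obtain ⟨y, rfl⟩ := hs.double.surj y
          rw [← map_mul, ← map_mul, Subgroup.mem_center_iff.1 hx y]
        rw [hs.type22.1, Subgroup.mem_bot] at this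
        exact this
      · rcases (hs.double.ker x).1 hx with rfl | rfl
        · exact one_mem _
        · exact Subgroup.mem_center_iff.2 fun y => (hs.double.central y).symm.eq
    let φ : C ⧸ Subgroup.center C ≃* Q :=
      (QuotientGroup.quotientMulEquivOfEq hker).trans (QuotientGroup.quotientKerEquivOfSurjective π hs.double.surj)
    have hφ : ∀ x : C, φ (x : C ⧸ Subgroup.center C) = π x := fun x => rfl
    have h := TypeTwentyThree.typeM22_map φ.symm hs.type22
    convert h using 1
    ext u
    obtain ⟨x, rfl⟩ := QuotientGroup.mk_surjective u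
    constructor
    · rintro ⟨y, hy, hyx⟩
      exact ⟨π x, by rw [← hφ x, ← hyx, hφ y]; exact (hs.lifts).1 y hy,
        φ.injective ((φ.apply_symm_apply _).trans (hφ x).symm)⟩
    · rintro ⟨e, he, hex⟩
      obtain ⟨y, hy, rfl⟩ := (hs.lifts).2.1 e he
      refine ⟨y, hy, φ.injective ?_⟩
      rw [hφ y, ← hex, φ.apply_symm_apply]
  · -- the pair
    obtain ⟨⟨ι, hι, hr⟩, -⟩ := pair hS charts hdT hb hdb
    obtain ⟨e₁⟩ := CfsgLib.Fischer.M23Unique.p8_iso
    let e₀ : P8 ≃* ↥(Subgroup.closure (both (conjugatesOf d) d b)) :=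
      (MonoidHom.ofInjective hι).trans (MulEquiv.subgroupCongr hr)
    have hP := p8_simple
    have hsimp : IsSimpleGroup ↥(Subgroup.closure (both (conjugatesOf d) d b)) := e₀.symm.isSimpleGroup
    have hZ : Subgroup.center ↥(Subgroup.closure (both (conjugatesOf d) d b)) = ⊥ := by
      rcases (inferInstance : (Subgroup.center ↥(Subgroup.closure (both (conjugatesOf d) d b))).Normal).eq_bot_or_eq_top
        with h | h
      · exact h
      exfalso
      have hcomm : ∀ x y : P8, Commute x y := fun x y => e₀.injective (by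
        rw [map_mul, map_mul]
        exact (Subgroup.mem_center_iff.1 (h ▸ Subgroup.mem_top (e₀ y)) (e₀ x)))
      have h1 := (CfsgLib.Fischer.M23Unique.of8_commute (x := .b) (y := .c) (by decide) (by decide)).1 (hcomm _ _)
      exact absurd h1 (by decide)
    refine ⟨1, one_ne_zero, projReflection_of_iso ?_⟩
    exact (((QuotientGroup.quotientMulEquivOfEq hZ).trans QuotientGroup.quotientBot).trans e₀.symm).trans e₁

end

end CfsgLib.Fischer.M23Recog
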